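import Cfsg.Agent.MaxSub.OrthTensor.Space
import Cfsg.Agent.MaxSub.TensorMax.Basic
import Cfsg.Agent.MaxSub.TensorMax.SympFix
import Cfsg.Agent.GeoClasses.OrthMaxBase

/-!
The tensor product of two orthogonal spaces, written as a space of matrices.
-/

set_option autoImplicit false
set_option linter.unusedSectionVars false

namespace Cfsg.Agent.MaxSub.OrthTensor

open Module Matrix QuadraticMap Cfsg.Agent.MaxSub.TensorMax Cfsg.Agent.Classical

variable {F : Type*} [Field F] {a b : ℕ}

/-- The quadratic form of a tensor product of two symmetric forms. -/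
structure TD (F : Type*) [Field F] (a b : ℕ) where
  /-- the form on the first factor -/
  f : (Fin a → F) →ₗ[F] (Fin a → F) →ₗ[F] F
  /-- the form on the second factor -/
  g : (Fin b → F) →ₗ[F] (Fin b → F) →ₗ[F] F
  /-- the functional of a vector of the second factor -/
  η : (Fin b → F) →ₗ[F] (Fin b → F)
  /-- the quadratic form -/
  Q : QuadraticForm F (Matrix (Fin a) (Fin b) F)
  hf : Sym f
  hg : Sym g
  g_eq : ∀ v w, v ⬝ᵥ η w = g v w
  polar_col : ∀ X w u, polar Q X (colMap w u) = f (rowMap (η w) X) u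

namespace TD

variable (D : TD F a b)

/-- Contraction with a vector of the second factor. -/
def row (y : Fin b → F) : Matrix (Fin a) (Fin b) F →ₗ[F] (Fin a → F) := rowMap (D.η y)

/-- The map `u ⊗ w ↦ g(y, w) A u ⊗ x`. -/
def cr (x y : Fin b → F) (A : Module.End F (Fin a → F)) :
    Module.End F (Matrix (Fin a) (Fin b) F) :=
  colMap x ∘ₗ A ∘ₗ D.row y

/-- A skew map of the second factor. -/
def nn (v c : Fin b → F) : Module.End F (Matrix (Fin a) (Fin b) F) := D.cr v c 1 - D.cr c v 1

/-- A member at an orthogonal singular pair. -/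
def quad (v c : Fin b → F) (P E E' R : Module.End F (Fin a → F)) :
    Module.End F (Matrix (Fin a) (Fin b) F) :=
  D.cr v v P + D.cr v c E + D.cr c v E' + D.cr c c R

/-- An Eichler displacement of the second factor. -/
def sieW (u y : Fin b → F) : Module.End F (Matrix (Fin a) (Fin b) F) :=
  D.cr y u 1 - D.cr u y 1 - (D.g y y / 2) • D.cr u u 1

/-- `1 + L` lies in the group. -/
def Mem (M : Subgroup (OQ D.Q)) (L : Module.End F (Matrix (Fin a) (Fin b) F)) : Prop :=
  ∃ m ∈ M, ∀ X, m.1 X = X + L X

/-- The group contains the Eichler transformations of both factors. -/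
structure Good (M : Subgroup (OQ D.Q)) : Prop where
  left : ∀ x y, D.f x x = 0 → D.f x y = 0 → D.Mem M (leftMap (sie D.f x y))
  right : ∀ u y, D.g u u = 0 → D.g u y = 0 → D.Mem M (D.sieW u y)

variable {D}

lemma row_col (y w : Fin b → F) (u : Fin a → F) : D.row y (colMap w u) = D.g w y • u := by
  rw [row, rowMap_colMap, D.g_eq]

lemma row_add (y y' : Fin b → F) (X : Matrix (Fin a) (Fin b) F) :
    D.row (y + y') X = D.row y X + D.row y' X := by
  rw [row, row, row, map_add, rowMap_add]

lemma row_smul (t : F) (y : Fin b → F) (X : Matrix (Fin a) (Fin b) F) :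
    D.row (t • y) X = t • D.row y X := by
  rw [row, row, map_smul, rowMap_smul]

lemma row_leftMap (y : Fin b → F) (A : Module.End F (Fin a → F)) (X : Matrix (Fin a) (Fin b) F) :
    D.row y (leftMap A X) = A (D.row y X) := rowMap_leftMap _ _ _

lemma col_add (x x' : Fin b → F) (u : Fin a → F) :
    colMap (x + x') u = colMap x u + colMap x' u := vecMulVec_add u x x'

lemma col_sub (x x' : Fin b → F) (u : Fin a → F) :
    colMap (x - x') u = colMap x u - colMap x' u := by
  rw [eq_sub_iff_add_eq, ← col_add, sub_add_cancel]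

lemma cr_apply (x y : Fin b → F) (A : Module.End F (Fin a → F)) (X : Matrix (Fin a) (Fin b) F) :
    D.cr x y A X = colMap x (A (D.row y X)) := rfl

lemma cr_mul_cr (x y x' y' : Fin b → F) (A B : Module.End F (Fin a → F)) :
    D.cr x y A * D.cr x' y' B = D.g x' y • D.cr x y' (A * B) := by
  refine LinearMap.ext fun X => ?_
  simp [cr_apply, row_col]

lemma cr_add (x y : Fin b → F) (A B : Module.End F (Fin a → F)) :
    D.cr x y (A + B) = D.cr x y A + D.cr x y B :=
  LinearMap.ext fun X => by simp [cr_apply]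

lemma cr_neg (x y : Fin b → F) (A : Module.End F (Fin a → F)) : D.cr x y (-A) = -D.cr x y A :=
  LinearMap.ext fun X => by simp [cr_apply]

lemma cr_sub (x y : Fin b → F) (A B : Module.End F (Fin a → F)) :
    D.cr x y (A - B) = D.cr x y A - D.cr x y B :=
  LinearMap.ext fun X => by simp [cr_apply]

lemma cr_smul (t : F) (x y : Fin b → F) (A : Module.End F (Fin a → F)) :
    D.cr x y (t • A) = t • D.cr x y A :=
  LinearMap.ext fun X => by simp [cr_apply]

lemma cr_zero (x y : Fin b → F) : D.cr x y (0 : Module.End F (Fin a → F)) = 0 :=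
  LinearMap.ext fun X => by simp [cr_apply]

lemma cr_add_left (x x' y : Fin b → F) (A : Module.End F (Fin a → F)) :
    D.cr (x + x') y A = D.cr x y A + D.cr x' y A :=
  LinearMap.ext fun X => by simp [cr_apply, col_add]

lemma cr_add_right (x y y' : Fin b → F) (A : Module.End F (Fin a → F)) :
    D.cr x (y + y') A = D.cr x y A + D.cr x y' A :=
  LinearMap.ext fun X => by simp [cr_apply, row_add]

lemma cr_smul_left (t : F) (x y : Fin b → F) (A : Module.End F (Fin a → F)) :
    D.cr (t • x) y A = t • D.cr x y A :=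
  LinearMap.ext fun X => by simp [cr_apply, colMap_smul_right]

lemma cr_smul_right (t : F) (x y : Fin b → F) (A : Module.End F (Fin a → F)) :
    D.cr x (t • y) A = t • D.cr x y A :=
  LinearMap.ext fun X => by simp [cr_apply, row_smul]

lemma end_neg_mul (A B : Module.End F (Matrix (Fin a) (Fin b) F)) : -A * B = -(A * B) :=
  LinearMap.ext fun X => by simp

lemma end_mul_neg (A B : Module.End F (Matrix (Fin a) (Fin b) F)) : A * -B = -(A * B) :=
  LinearMap.ext fun X => by simp

lemma cr_eq_zero {x x' y y' : Fin b → F} (hx : D.g x x' = 1) (hy : D.g y' y = 1)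
    {A : Module.End F (Fin a → F)} (h : D.cr x y A = 0) : A = 0 := by
  refine LinearMap.ext fun u => ?_
  have h1 := congrArg (fun L : Module.End F (Matrix (Fin a) (Fin b) F) => D.row x' (L (colMap y' u))) h
  simpa [cr_apply, row_col, hx, hy] using h1

lemma ext_row {X Y : Matrix (Fin a) (Fin b) F} (h : ∀ y, D.row y X = D.row y Y) : X = Y := by
  funext i
  refine sub_eq_zero.1 (D.hg.nd _ fun c => ?_)
  rw [← D.g_eq]
  show (X i - Y i) ⬝ᵥ D.η c = 0
  rw [sub_dotProduct]
  exact sub_eq_zero.2 (congrFun (h c) i)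

lemma ext_entries {L L' : Module.End F (Matrix (Fin a) (Fin b) F)}
    (h : ∀ x y u, D.row x (L (colMap y u)) = D.row x (L' (colMap y u))) : L = L' :=
  LinearMap.ext fun X => ext_colMap (fun w u => ext_row fun x => h x w u) X

lemma polar_col_col (w w' : Fin b → F) (u u' : Fin a → F) :
    polar D.Q (colMap w u) (colMap w' u') = D.f u u' * D.g w w' := by
  rw [D.polar_col, ← row, row_col, map_smul, LinearMap.smul_apply, smul_eq_mul, mul_comm]

lemma polar_col_left (X : Matrix (Fin a) (Fin b) F) (w : Fin b → F) (u : Fin a → F) :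
    polar D.Q (colMap w u) X = D.f (D.row w X) u := by
  rw [polar_comm, D.polar_col]; rfl

lemma Q_col (w : Fin b → F) (u : Fin a → F) : D.Q (colMap w u) = D.f u u * D.g w w / 2 := by
  rw [← polar_col_col, polar_self, two_smul, ← two_mul, mul_div_cancel_left₀ _ D.hf.two]

lemma bNondeg : BNondeg D.Q := fun X hX => ext_row fun y => by
  rw [map_zero]
  exact D.hf.nd _ fun u => by rw [row, ← D.polar_col]; exact hX _

lemma polar_map {M : Subgroup (OQ D.Q)} {L : Module.End F (Matrix (Fin a) (Fin b) F)}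
    (h : D.Mem M L) (X Y : Matrix (Fin a) (Fin b) F) :
    polar D.Q (X + L X) (Y + L Y) = polar D.Q X Y := by
  obtain ⟨m, -, hm⟩ := h
  rw [← hm, ← hm, OQ_polar]

/-- The Eichler transformations at pure tensors. -/
lemma siegel_col {v : Fin b → F} (hv : D.g v v = 0) (u u' : Fin a → F)
    (h1 : D.Q (colMap v u) = 0) (h2 : polar D.Q (colMap v u) (colMap v u') = 0)
    (X : Matrix (Fin a) (Fin b) F) :
    (siegel D.Q h1 h2).1 X = X + D.cr v v (wed D.f u' u) X := by
  rw [siegel_apply, Q_col, hv, mul_zero, zero_div, zero_mul, zero_smul, sub_zero, polar_col_left,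
    polar_col_left, cr_apply, wed_apply, map_sub, map_smul, map_smul, add_sub_assoc,
    D.hf.symm u, D.hf.symm u']

variable {M : Subgroup (OQ D.Q)}

lemma Mem.congr {L L' : Module.End F (Matrix (Fin a) (Fin b) F)} (h : D.Mem M L) (e : L = L') :
    D.Mem M L' := e ▸ h

lemma mem_zero : D.Mem M 0 := ⟨1, one_mem M, fun X => by simp⟩

lemma Mem.neg {L : Module.End F (Matrix (Fin a) (Fin b) F)} (h : D.Mem M L) (hL : L * L = 0) :
    D.Mem M (-L) := by
  obtain ⟨m, hm, hmX⟩ := h
  refine ⟨m⁻¹, inv_mem hm, fun X => m.1.injective ?_⟩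
  show m.1 (m.1.symm X) = _
  rw [LinearEquiv.apply_symm_apply, hmX]
  have : L (L X) = 0 := by rw [← Module.End.mul_apply, hL]; rfl
  simp [map_neg, this]

lemma Mem.add {L L' : Module.End F (Matrix (Fin a) (Fin b) F)} (h : D.Mem M L) (h' : D.Mem M L')
    (hLL : L * L' = 0) : D.Mem M (L + L') := by
  obtain ⟨m, hm, hmX⟩ := h
  obtain ⟨k, hk, hkX⟩ := h'
  refine ⟨m * k, mul_mem hm hk, fun X => ?_⟩
  have : L (L' X) = 0 := by rw [← Module.End.mul_apply, hLL]; rfl
  rw [Subgroup.coe_mul, LinearEquiv.mul_apply, hmX, hkX, map_add, this, add_zero,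
    LinearMap.add_apply]
  abel

lemma Mem.conj {L L' : Module.End F (Matrix (Fin a) (Fin b) F)} (h : D.Mem M L) {k : OQ D.Q}
    (hk : k ∈ M) (he : ∀ X, k.1 (L X) = L' (k.1 X)) : D.Mem M L' := by
  obtain ⟨m, hm, hmX⟩ := h
  refine ⟨k * m * k⁻¹, mul_mem (mul_mem hk hm) (inv_mem hk), fun X => ?_⟩
  rw [Subgroup.coe_mul, Subgroup.coe_mul, LinearEquiv.mul_apply, LinearEquiv.mul_apply, hmX,
    map_add, he]
  show k.1 (k.1.symm X) + L' (k.1 (k.1.symm X)) = _
  rw [LinearEquiv.apply_symm_apply]

/-- The commutator of two elements with vanishing long products. -/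
lemma Mem.comm {A B : Module.End F (Matrix (Fin a) (Fin b) F)} (hA : D.Mem M A) (hB : D.Mem M B)
    (hAA : A * A = 0) (hBB : B * B = 0) (hABA : A * B * A = 0) (hBAB : B * A * B = 0) :
    D.Mem M (A * B - B * A) := by
  obtain ⟨x, hx, hxX⟩ := hA
  obtain ⟨y, hy, hyX⟩ := hB
  have hAA' : ∀ X, A (A X) = 0 := fun X => by rw [← Module.End.mul_apply, hAA]; rfl
  have hBB' : ∀ X, B (B X) = 0 := fun X => by rw [← Module.End.mul_apply, hBB]; rfl
  have hABA' : ∀ X, A (B (A X)) = 0 := fun X => by
    rw [← Module.End.mul_apply, ← Module.End.mul_apply, hABA]; rfl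
  have hBAB' : ∀ X, B (A (B X)) = 0 := fun X => by
    rw [← Module.End.mul_apply, ← Module.End.mul_apply, hBAB]; rfl
  have hxi : ∀ X, x⁻¹.1 X = X - A X := fun X => x.1.injective (by
    show x.1 (x.1.symm X) = _
    rw [LinearEquiv.apply_symm_apply, hxX, map_sub, hAA', sub_zero, sub_add_cancel])
  have hyi : ∀ X, y⁻¹.1 X = X - B X := fun X => y.1.injective (by
    show y.1 (y.1.symm X) = _
    rw [LinearEquiv.apply_symm_apply, hyX, map_sub, hBB', sub_zero, sub_add_cancel])
  refine ⟨x * y * x⁻¹ * y⁻¹, mul_mem (mul_mem (mul_mem hx hy) (inv_mem hx)) (inv_mem hy),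
    fun X => ?_⟩
  simp only [Subgroup.coe_mul, LinearEquiv.mul_apply, hxi, hyi, hxX, hyX, map_add, map_sub, hAA',
    hBB', hABA', hBAB', map_zero, LinearMap.sub_apply, Module.End.mul_apply]
  abel

/-- Conjugation by an Eichler transformation of the second factor. -/
lemma cr_moved {u y : Fin b → F} (hu : D.g u u = 0) (huy : D.g u y = 0) {k : OQ D.Q}
    (hk : ∀ X, k.1 X = X + D.sieW u y X) (x x' : Fin b → F) (A : Module.End F (Fin a → F))
    (X : Matrix (Fin a) (Fin b) F) :
    k.1 (D.cr x x' A X) = D.cr (x + sie D.g u y x) (x' + sie D.g u y x') A (k.1 X) := by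
  have h1 : ∀ w p, k.1 (colMap w p) = colMap (w + sie D.g u y w) p := fun w p => by
    rw [hk, sie_apply]
    simp [sieW, cr_apply, row_col, col_add, col_sub, colMap_smul_right, D.hg.symm w u,
      D.hg.symm w y, smul_smul]
  have h2 : ∀ Y w, D.row (w + sie D.g u y w) (k.1 Y) = D.row w Y := fun Y w => by
    refine sub_eq_zero.1 (D.hf.nd _ fun p => ?_)
    rw [map_sub, LinearMap.sub_apply, row, row, ← D.polar_col, ← D.polar_col, ← h1, OQ_polar, sub_self]
  rw [cr_apply, cr_apply, h1, h2]

/-- Conjugation by an isometry of the first factor. -/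
lemma leftMap_conj {A A' : Module.End F (Fin a → F)} (hA : A * A' = 1) (x y : Fin b → F)
    (P : Module.End F (Fin a → F)) (X : Matrix (Fin a) (Fin b) F) :
    leftMap A (D.cr x y P X) = D.cr x y (A * P * A') (leftMap A X) := by
  have hA' : A' * A = 1 := mul_eq_one_comm.1 hA
  rw [cr_apply, cr_apply, leftMap_colMap, row_leftMap, Module.End.mul_apply, Module.End.mul_apply,
    ← Module.End.mul_apply A', hA', Module.End.one_apply]

end TD

end Cfsg.Agent.MaxSub.OrthTensor
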