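import Cfsg.Agent.MaxSub.OrthTensor.Roots
import Cfsg.Agent.GeoClasses.OrthNondeg

/-!
Root elements at pure singular tensors generate the whole of `Ω`.
-/

set_option autoImplicit false
set_option linter.unusedSectionVars false

namespace Cfsg.Agent.MaxSub.OrthTensor

open Module Matrix QuadraticMap Cfsg.Agent.MaxSub.TensorMax Cfsg.Agent.Classical
open Cfsg.Agent.GeoClasses (siegelCentres commutator_le_of_centre_pair)

variable {F : Type*} [Field F] {a b : ℕ}

namespace TD

variable {D : TD F a b} {M : Subgroup (OQ D.Q)}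

/-- The parameters of the Eichler transformations at `x` in `M`. -/
def par (M : Subgroup (OQ D.Q)) {x : Matrix (Fin a) (Fin b) F} (hx : D.Q x = 0) :
    AddSubgroup (Matrix (Fin a) (Fin b) F) where
  carrier := {y | ∃ hy : polar D.Q x y = 0, siegel D.Q hx hy ∈ M}
  zero_mem' := ⟨by simp, by
    convert one_mem M using 1
    ext v; simp⟩
  add_mem' := fun {p q} ⟨hp, hp'⟩ ⟨hq, hq'⟩ =>
    ⟨by rw [polar_add_right, hp, hq, add_zero], by
      rw [← siegel_mul D.Q hx hp hq]; exact mul_mem hp' hq'⟩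
  neg_mem' := fun {p} ⟨hp, hp'⟩ =>
    ⟨by rw [polar_neg_right, hp, neg_zero], by rw [← siegel_inv D.Q hx hp]; exact inv_mem hp'⟩

lemma map_mem_par {x y : Matrix (Fin a) (Fin b) F} {hx : D.Q x = 0} (hy : y ∈ par M hx)
    {m : OQ D.Q} (hm : m ∈ M) (hmx : m.1 x = x) : m.1 y ∈ par M hx := by
  obtain ⟨hy, hy'⟩ := hy
  have h0 : polar D.Q x (m.1 y) = 0 := by rw [← hmx, OQ_polar, hy]
  refine ⟨h0, ?_⟩
  have h1 := mul_mem (mul_mem hm hy') (inv_mem hm)
  rw [siegel_conj] at h1
  convert h1 using 1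
  exact siegel_congr D.Q _ _ _ _ hmx.symm rfl

variable (hD : D.Dims) (hM : D.Good M)
include hD hM

lemma roots_scale {v : Fin b → F} {t : F} (h : D.Roots M v) : D.Roots M (t • v) := fun u u' =>
  (h ((t * t) • u) u').congr (by
    rw [Sym.wed_smul, cr_smul, cr_smul_left, cr_smul_right, smul_smul])

lemma roots_all [Finite F] {v : Fin b → F} (hv : D.g v v = 0) (hv0 : v ≠ 0) (h : D.Roots M v)
    {w : Fin b → F} (hw : D.g w w = 0) (hw0 : w ≠ 0) : D.Roots M w := by
  have step : ∀ v w, D.g v v = 0 → v ≠ 0 → D.g w w = 0 → w ≠ 0 → D.g v w = 0 → D.Roots M v →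
      D.Roots M w := by
    intro v w hv hv0 hw hw0 hvw h
    obtain ⟨u, hu, huv, huw⟩ := D.hg.exists_mid hv hv0 hw hw0 hvw
    obtain ⟨p, hp⟩ : ∃ p, p = (D.g u v)⁻¹ • v := ⟨_, rfl⟩
    obtain ⟨q, hq⟩ : ∃ q, q = (D.g u w)⁻¹ • w := ⟨_, rfl⟩
    have hup : D.g u p = 1 := by rw [hp, map_smul, smul_eq_mul, inv_mul_cancel₀ huv]
    have huq : D.g u q = 1 := by rw [hq, map_smul, smul_eq_mul, inv_mul_cancel₀ huw]
    have hpp : D.g p p = 0 := by simp [hp, hv]
    have hqq : D.g q q = 0 := by simp [hq, hw]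
    have hpr : D.Roots M p := by rw [hp]; exact roots_scale hD hM h
    have huy : D.g u (q - p) = 0 := by rw [map_sub, hup, huq, sub_self]
    have hT : p + sie D.g u (q - p) p = q := by
      rw [sie_apply, hup]
      simp only [map_sub, LinearMap.sub_apply, hpp, hqq, D.hg.symm q p, sub_zero, one_smul, mul_one]
      have := D.hg.two
      match_scalars <;> field_simp <;> ring
    have hqr : D.Roots M q := fun r r' => by
      obtain ⟨k, hk, hkX⟩ := hM.right u (q - p) hu huy
      refine (hpr r r').conj hk fun X => ?_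
      rw [cr_moved hu huy hkX, hT]
    have := roots_scale (t := D.g u w) hD hM hqr
    rwa [hq, smul_inv_smul₀ huw] at this
  by_cases hvw : D.g v w = 0
  · exact step v w hv hv0 hw hw0 hvw h
  · obtain ⟨c, hc0, hc, h1, h2⟩ := D.hg.exists_iso_perp (by rw [finrank_fin_fun]; exact hD.five) v w
    exact step c w hc hc0 hw hw0 (D.hg.perp_symm h2) (step v c hv hv0 hc hc0 h1 h)

variable [Finite F]

/-- Pure singular tensors are centres. -/
lemma col_mem_centres (hR : ∀ w, D.g w w = 0 → w ≠ 0 → D.Roots M w) {v : Fin b → F}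
    (hv : D.g v v = 0) (hv0 : v ≠ 0) {u : Fin a → F} (hu : u ≠ 0) :
    colMap v u ∈ siegelCentres D.Q M := by
  classical
  have hb : 5 ≤ finrank F (Fin b → F) := by rw [finrank_fin_fun]; exact hD.five
  have ha : 3 ≤ finrank F (Fin a → F) := by rw [finrank_fin_fun]; exact hD.three
  have hQ : ∀ {v : Fin b → F}, D.g v v = 0 → ∀ u, D.Q (colMap v u) = 0 := fun hv u => by
    rw [Q_col, hv, mul_zero, zero_div]
  have hroot : ∀ {v : Fin b → F}, D.g v v = 0 → v ≠ 0 → ∀ u u' : Fin a → F,
      ∃ h : polar D.Q (colMap v u) (colMap v u') = 0,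
        ∀ (hq : D.Q (colMap v u) = 0), siegel D.Q hq h ∈ M := by
    intro v hv hv0 u u'
    have h0 : polar D.Q (colMap v u) (colMap v u') = 0 := by rw [polar_col_col, hv, mul_zero]
    refine ⟨h0, fun hq => ?_⟩
    obtain ⟨m, hm, hmX⟩ := hR v hv hv0 u' u
    suffices siegel D.Q hq h0 = m by rw [this]; exact hm
    exact Subtype.ext (LinearEquiv.ext fun X => (siegel_col hv u u' _ _ X).trans (hmX X).symm)
  -- every line outside the orthogonal
  have stepB : ∀ {v : Fin b → F} (hv : D.g v v = 0), v ≠ 0 → ∀ {u : Fin a → F}, u ≠ 0 →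
      ∀ e, D.f u e = 0 → ∀ w, colMap w e ∈ par M (hQ hv u) := by
    intro v hv hv0 u hu e he w
    let T : Submodule F (Fin b → F) :=
      { carrier := {w | ∀ e, D.f u e = 0 → colMap w e ∈ par M (hQ hv u)}
        zero_mem' := fun e _ => by
          rw [show colMap (0 : Fin b → F) e = (0 : Matrix (Fin a) (Fin b) F) by
            ext i j; simp [colMap, vecMulVec_apply]]
          exact zero_mem _
        add_mem' := fun {w w'} hw hw' e he => by rw [col_add]; exact add_mem (hw e he) (hw' e he)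
        smul_mem' := fun t w hw e he => by
          rw [colMap_smul_right, ← map_smul]; exact hw _ (by simp [he]) }
    suffices hT : T = ⊤ from (hT ▸ Submodule.mem_top : w ∈ T) e he
    refine D.hg.span_affine hb hv hv0 fun v1 hv1 hκ e he => ?_
    rcases eq_or_ne e 0 with rfl | he0
    · rw [map_zero]; exact zero_mem _
    have hv10 : v1 ≠ 0 := fun h0 => hκ (by simp [h0])
    obtain ⟨u₁, hu₁, hu₁u⟩ := Sym.exists_perp_avoid (g := D.f) ![u] (F ∙ e) (by
      rw [finrank_span_singleton he0]; omega)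
    obtain ⟨u', hu', hperp⟩ := D.hf.exists_pair_sub hu₁
    have h1 : D.f e u' = 0 := hperp e (Submodule.mem_span_singleton_self e)
    have h2 : D.f u u₁ = 0 := hu₁u 0
    obtain ⟨m, hm, hmX⟩ := hR v1 hv1 hv10 e ((D.g v v1)⁻¹ • u₁)
    have hfix : m.1 (colMap v u) = colMap v u := by
      simp [hmX, cr_apply, row_col, wed_apply, D.hf.symm u₁ u, h2, D.hf.symm e u, he]
    obtain ⟨hy, hy'⟩ := hroot hv hv0 u u'
    have hmem : colMap v u' ∈ par M (hQ hv u) := ⟨hy, hy' _⟩
    have := sub_mem (map_mem_par hmem hm hfix) hmem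
    convert this using 1
    simp [hmX, cr_apply, row_col, wed_apply, hu', h1, hκ]
  -- lines in the orthogonal
  have stepD : ∀ v' : Fin b → F, D.g v v' = 0 → ∀ f₀, colMap v' f₀ ∈ par M (hQ hv u) := by
    intro v' hvv' f₀
    let T : Submodule F (Fin b → F) :=
      { carrier := {w | ∀ f₀, colMap w f₀ ∈ par M (hQ hv u)}
        zero_mem' := fun e => by
          rw [show colMap (0 : Fin b → F) e = (0 : Matrix (Fin a) (Fin b) F) by
            ext i j; simp [colMap, vecMulVec_apply]]
          exact zero_mem _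
        add_mem' := fun {w w'} hw hw' e => by rw [col_add]; exact add_mem (hw e) (hw' e)
        smul_mem' := fun t w hw e => by rw [colMap_smul_right, ← map_smul]; exact hw _ }
    obtain ⟨v₁, hv₁⟩ := D.hg.exists_hyp hv hv0
    obtain ⟨c, c', hc, hcc, h1, -, -⟩ := D.hg.exists_second hb hv₁
    suffices hT : LinearMap.ker (D.g v) ≤ T from hT (LinearMap.mem_ker.2 hvv') f₀
    refine D.hg.le_of_iso hcc (LinearMap.mem_ker.2 hc.2.2.2.2) (LinearMap.mem_ker.2 h1)
      fun w hw hww f₀ => ?_
    have hvw : D.g v w = 0 := LinearMap.mem_ker.1 hw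
    rcases eq_or_ne f₀ 0 with rfl | hf0
    · rw [map_zero]; exact zero_mem _
    rcases eq_or_ne w 0 with rfl | hw0
    · rw [show colMap (0 : Fin b → F) f₀ = (0 : Matrix (Fin a) (Fin b) F) by
        ext i j; simp [colMap, vecMulVec_apply]]
      exact zero_mem _
    obtain ⟨z, hz, hzw, hzz⟩ : ∃ z, D.g v z = 0 ∧ D.g w z = 0 ∧ D.g z z ≠ 0 := by
      obtain ⟨y₀, hy₀, hwp⟩ := Sym.exists_perp_avoid (g := D.g) ![v, w] (Submodule.span F {v, w}) (by
        have := SData.finrank_span_pair v w; omega)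
      obtain ⟨y, hy, hyS⟩ := D.hg.exists_pair_sub hy₀
      obtain ⟨z, hz, hzz⟩ := D.hg.aniso_of_pair
        (S := LinearMap.ker (LinearMap.pi fun i => D.g (![v, w] i))) (x := y₀) (y := y)
        (LinearMap.mem_ker.2 (funext fun i => hwp i))
        (LinearMap.mem_ker.2 (funext fun i => by
          fin_cases i <;> exact hyS _ (Submodule.subset_span (by simp))))
        (by rw [hy]; exact one_ne_zero)
      exact ⟨z, congrFun (LinearMap.mem_ker.1 hz) 0, congrFun (LinearMap.mem_ker.1 hz) 1, hzz⟩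
    obtain ⟨e, e', he, he', hee⟩ : ∃ e e', D.f u e = 0 ∧ D.f f₀ e' = 0 ∧ D.f e' e ≠ 0 := by
      by_contra hcon
      push Not at hcon
      obtain ⟨e, he, hep⟩ := Sym.exists_perp_avoid (g := D.f) ![u] (F ∙ f₀) (by
        rw [finrank_span_singleton hf0]; omega)
      obtain ⟨e', he', heS⟩ := D.hf.exists_pair_sub he
      have := hcon e e' (hep 0) (heS f₀ (Submodule.mem_span_singleton_self f₀))
      rw [D.hf.symm, he'] at this
      exact one_ne_zero this
    have hκ : D.f e' e * D.g z z ≠ 0 := mul_ne_zero hee hzz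
    set e'' := (D.f e' e * D.g z z)⁻¹ • e' with he''
    obtain ⟨hp, hp'⟩ := stepB hww hw0 hf0 e'' (by simp [he'', he']) z
    have hfix : (siegel D.Q (hQ hww f₀) hp).1 (colMap v u) = colMap v u := by
      refine siegel_fix D.Q _ hp ?_ ?_ <;> rw [polar_col_col]
      · rw [D.hg.perp_symm hvw, mul_zero]
      · rw [D.hg.perp_symm hz, mul_zero]
    have hmem := stepB hv hv0 hu e he z
    have := sub_mem hmem (map_mem_par hmem hp' hfix)
    convert this using 1
    simp [polar_col_col, hzw, he'', smul_smul]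
    rw [show (D.g z z)⁻¹ * (D.f e' e)⁻¹ * (D.f e' e * D.g z z) = 1 by field_simp, one_smul]
  refine ⟨hQ hv u, fun X hX => ?_⟩
  suffices hmem : X ∈ par M (hQ hv u) from hmem.2
  obtain ⟨v', hv'⟩ := D.hg.exists_hyp hv hv0
  have hdec : X = ∑ j, colMap (Pi.single j 1 - D.g v (Pi.single j 1) • v') (fun i => X i j) +
      colMap v' (D.row v X) := by
    have e1 : ∀ (x : Fin b → F) (p : Fin a → F), colMap (x - D.g v x • v') p =
        colMap x p - colMap v' (D.row v (colMap x p)) := fun x p => by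
      rw [row_col, D.hg.symm x v, col_sub, map_smul, colMap_smul_right]
    simp only [e1]
    rw [Finset.sum_sub_distrib, ← map_sum, ← map_sum, ← eq_sum_colMap, sub_add_cancel]
  rw [hdec]
  refine add_mem (sum_mem fun j _ => stepD _ (by simp [hv'.2.2]) _) (stepB hv hv0 hu _ ?_ v')
  rw [D.hf.symm, ← polar_col_left, hX]

/-- All root elements give `Ω`. -/
theorem commutator_le (hR : ∀ w, D.g w w = 0 → w ≠ 0 → D.Roots M w) : commutator (OQ D.Q) ≤ M := by
  have hn : 5 ≤ finrank F (Matrix (Fin a) (Fin b) F) := by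
    rw [Module.finrank_matrix, Module.finrank_self, Fintype.card_fin, Fintype.card_fin]
    have := hD.three; have := hD.five; nlinarith
  obtain ⟨v, v', hv⟩ := D.hg.exists_hyp_any (by rw [finrank_fin_fun]; exact hD.five)
  obtain ⟨x, -, hx0, hx⟩ := D.hf.exists_iso (S := (⊤ : Submodule F (Fin a → F)))
    (by rw [finrank_top, finrank_fin_fun]; exact hD.three)
  obtain ⟨x', hxx'⟩ := D.hf.exists_hyp hx hx0
  have hv0 : v ≠ 0 := fun h => by have := hv.2.2; simp [h] at this
  have hv'0 : v' ≠ 0 := fun h => by have := hv.2.2; simp [h] at this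
  have hx'0 : x' ≠ 0 := fun h => by have := hxx'.2.2; simp [h] at this
  refine commutator_le_of_centre_pair D.bNondeg hn (col_mem_centres hD hM hR hv.1 hv0 hx0)
    (col_mem_centres hD hM hR hv.2.1 hv'0 hx'0) ?_
  rw [polar_col_col, D.hf.symm, hxx'.2.2, D.hg.symm, hv.2.2, mul_one]
  exact one_ne_zero

end TD

end Cfsg.Agent.MaxSub.OrthTensor
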