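import Cfsg.Agent.MaxSub.OrthTensor.Space

/-!
Endomorphisms of an orthogonal space fixed by the Eichler transformations at a singular vector, and
sets of skew maps closed under all Eichler transformations.
-/

set_option autoImplicit false
set_option linter.unusedSectionVars false

namespace Cfsg.Agent.MaxSub.OrthTensor

open Module

/-- Commuting nilpotent operators have a common fixed vector outside a stable subgroup. -/
lemma exists_common_fixed {ι X : Type*} [Finite ι] [AddCommGroup X] (D : ι → AddMonoid.End X)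
    (hcomm : ∀ i j, Commute (D i) (D j)) (hnil : ∀ i, IsNilpotent (D i))
    (S Z : AddSubgroup X) (hS : ∀ i, ∀ x ∈ S, D i x ∈ S) (hZ : ∀ i, ∀ x ∈ Z, D i x ∈ Z)
    (h : ∃ x ∈ S, x ∉ Z) : ∃ x ∈ S, x ∉ Z ∧ ∀ i, D i x ∈ Z := by
  classical
  haveI := Fintype.ofFinite ι
  suffices ∀ T : Finset ι, ∃ x ∈ S, x ∉ Z ∧ ∀ i ∈ T, D i x ∈ Z by
    obtain ⟨x, hx, hxZ, hx'⟩ := this Finset.univ
    exact ⟨x, hx, hxZ, fun i => hx' i (Finset.mem_univ i)⟩
  intro T
  induction T using Finset.induction_on with
  | empty =>
    obtain ⟨x, hx, hxZ⟩ := h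
    exact ⟨x, hx, hxZ, by simp⟩
  | insert j T _ ih =>
    obtain ⟨x, hx, hxZ, hxT⟩ := ih
    obtain ⟨n, hn⟩ := hnil j
    have hex : ∃ k, (D j ^ k) x ∈ Z := ⟨n, by rw [hn]; exact Z.zero_mem⟩
    obtain ⟨k, hk⟩ : ∃ k, Nat.find hex = k + 1 := Nat.exists_eq_succ_of_ne_zero fun h0 => hxZ (by
      have := Nat.find_spec hex
      rw [h0, pow_zero] at this
      exact this)
    have hpowS : ∀ m, (D j ^ m) x ∈ S := fun m => by
      induction m with
      | zero => exact hx
      | succ m ih => rw [pow_succ']; exact hS j _ ih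
    refine ⟨(D j ^ k) x, hpowS k, Nat.find_min hex (by omega), fun i hi => ?_⟩
    rcases Finset.mem_insert.1 hi with rfl | hi'
    · have := Nat.find_spec hex
      rw [hk, pow_succ'] at this
      exact this
    · have e : D i ((D j ^ k) x) = (D j ^ k) (D i x) := by
        show (D i * D j ^ k) x = (D j ^ k * D i) x
        rw [((hcomm i j).pow_right k).eq]
      rw [e]
      have : ∀ m, ∀ z ∈ Z, (D j ^ m) z ∈ Z := fun m => by
        induction m with
        | zero => exact fun z hz => hz
        | succ m ih => exact fun z hz => by rw [pow_succ']; exact hZ j _ (ih z hz)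
      exact this k _ (hxT i hi')

/-- Halving in a subgroup of a space of odd characteristic. -/
lemma mem_of_add_self {F X : Type*} [Field F] [Finite F] [AddCommGroup X] [Module F X]
    (h2 : (2 : F) ≠ 0) (S : AddSubgroup X) {x : X} (h : x + x ∈ S) : x ∈ S := by
  haveI := Fintype.ofFinite F
  obtain ⟨p, hpc, n, hp, -⟩ := FiniteField.card' F
  haveI : CharP F p := hpc
  obtain ⟨k, hk⟩ := hp.odd_of_ne_two fun h => h2 (by subst h; exact_mod_cast CharP.cast_eq_zero F 2)
  have hpx : p • x = 0 := by rw [← Nat.cast_smul_eq_nsmul F, CharP.cast_eq_zero, zero_smul]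
  have := S.nsmul_mem h (k + 1)
  rwa [← two_nsmul, ← mul_nsmul', show (k + 1) * 2 = p + 1 by omega, succ_nsmul, hpx, zero_add] at this

variable {F U : Type*} [Field F] [AddCommGroup U] [Module F U] {f : U →ₗ[F] U →ₗ[F] F}

namespace Sym

variable (hf : Sym f)
include hf

lemma sie_comp {x y y' : U} (hx : f x x = 0) (hy : f x y = 0) (hy' : f x y' = 0) :
    ((1 : Module.End F U) + sie f x y) * (1 + sie f x y') = 1 + sie f x (y + y') := by
  refine LinearMap.ext fun w => ?_
  simp only [Module.End.mul_apply, LinearMap.add_apply, Module.End.one_apply, sie_apply, map_add,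
    map_sub, map_smul, smul_eq_mul, hx, hy, hy', hf.perp_symm hy, hf.perp_symm hy', hf.symm y' y]
  have := hf.two
  match_scalars <;> field_simp <;> ring

omit hf in
lemma sie_zero (x : U) : sie f x 0 = 0 := LinearMap.ext fun w => by simp [sie_apply]

/-- The operator of conjugation by an Eichler transformation, minus one. -/
def adSub (_hf : Sym f) (x y : U) : Module.End F (Module.End F U) :=
  LinearMap.mulLeft F (1 + sie f x y) ∘ₗ LinearMap.mulRight F (1 + sie f x (-y)) - LinearMap.id

lemma adSub_apply (x y : U) (P : Module.End F U) :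
    hf.adSub x y P = (1 + sie f x y) * (P * (1 + sie f x (-y))) - P := rfl

variable [Finite F] [FiniteDimensional F U]

lemma adSub_nilpotent {x y : U} (hx : f x x = 0) (hy : f x y = 0) :
    IsNilpotent (hf.adSub x y) := by
  haveI := Fintype.ofFinite F
  obtain ⟨p, hpc, n, hp, -⟩ := FiniteField.card' F
  haveI : CharP F p := hpc
  haveI : Fact p.Prime := ⟨hp⟩
  refine ⟨p, ?_⟩
  rcases subsingleton_or_nontrivial (Module.End F (Module.End F U)) with h | h
  · exact Subsingleton.elim _ _
  haveI : CharP (Module.End F (Module.End F U)) p := charP_of_injective_algebraMap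
    (algebraMap F (Module.End F (Module.End F U))).injective p
  set Ad : Module.End F (Module.End F U) :=
    LinearMap.mulLeft F (1 + sie f x y) ∘ₗ LinearMap.mulRight F (1 + sie f x (-y)) with hAd
  have hk : ∀ k : ℕ, Ad ^ k = LinearMap.mulLeft F (1 + sie f x (k • y)) ∘ₗ
      LinearMap.mulRight F (1 + sie f x (-(k • y))) := by
    intro k
    induction k with
    | zero => refine LinearMap.ext fun P => ?_; simp [sie_zero]
    | succ k ih =>
      rw [pow_succ', ih]
      refine LinearMap.ext fun P => ?_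
      have hky : f x (k • y) = 0 := by rw [map_nsmul, hy, nsmul_zero]
      have e1 := hf.sie_comp (y := y) (y' := k • y) hx hy hky
      have e2 := hf.sie_comp (y := -(k • y)) (y' := -y) hx (by rw [map_neg, hky, neg_zero])
        (by rw [map_neg, hy, neg_zero])
      rw [show y + k • y = (k + 1) • y by rw [succ_nsmul, add_comm]] at e1
      rw [show -(k • y) + -y = -((k + 1) • y) by rw [succ_nsmul]; abel] at e2
      simp only [Module.End.mul_apply, hAd, LinearMap.comp_apply, LinearMap.mulLeft_apply,
        LinearMap.mulRight_apply, ← e1, ← e2]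
      simp only [mul_assoc]
  have hp0 : Ad ^ p = 1 := by
    rw [hk, show p • y = (0 : U) by rw [← Nat.cast_smul_eq_nsmul F, CharP.cast_eq_zero, zero_smul]]
    refine LinearMap.ext fun P => ?_
    simp [sie_zero]
  show (Ad - 1) ^ p = 0
  have h1 := sub_pow_char_pow_of_commute (p := p) 1 (Commute.one_right Ad)
  rw [pow_one, one_pow, hp0, sub_self] at h1
  exact h1

lemma adSub_commute {x y y' : U} (hx : f x x = 0) (hy : f x y = 0) (hy' : f x y' = 0) :
    Commute (hf.adSub x y) (hf.adSub x y') := by
  suffices h : Commute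
      (LinearMap.mulLeft F (1 + sie f x y) ∘ₗ LinearMap.mulRight F (1 + sie f x (-y)) :
        Module.End F (Module.End F U))
      (LinearMap.mulLeft F (1 + sie f x y') ∘ₗ LinearMap.mulRight F (1 + sie f x (-y'))) from
    (h.sub_left (Commute.one_left _)).sub_right ((Commute.one_right _).sub_left (Commute.one_right _))
  refine LinearMap.ext fun P => ?_
  have hn : f x (-y) = 0 := by rw [map_neg, hy, neg_zero]
  have hn' : f x (-y') = 0 := by rw [map_neg, hy', neg_zero]
  simp only [Module.End.mul_apply, LinearMap.comp_apply, LinearMap.mulLeft_apply,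
    LinearMap.mulRight_apply, mul_assoc]
  rw [← mul_assoc, hf.sie_comp hx hy hy', hf.sie_comp hx hn' hn]
  conv_rhs => rw [← mul_assoc, hf.sie_comp hx hy' hy, hf.sie_comp hx hn hn']
  rw [add_comm y, add_comm (-y')]

/-- A fixed element of a set closed under the Eichler conjugations at `x`. -/
lemma exists_fixed {x : U} (hx : f x x = 0) (S Z : AddSubgroup (Module.End F U))
    (hS : ∀ y, f x y = 0 → ∀ P ∈ S, (1 + sie f x y) * (P * (1 + sie f x (-y))) ∈ S)
    (hZ : ∀ y, f x y = 0 → ∀ P ∈ Z, (1 + sie f x y) * (P * (1 + sie f x (-y))) ∈ Z)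
    (h : ∃ P ∈ S, P ∉ Z) :
    ∃ P ∈ S, P ∉ Z ∧ ∀ y, f x y = 0 → (1 + sie f x y) * (P * (1 + sie f x (-y))) - P ∈ Z := by
  haveI : Finite U := Module.finite_of_finite F
  obtain ⟨P, hP, hPZ, hfix⟩ := exists_common_fixed
    (fun y : {y // f x y = 0} => ((hf.adSub x y.1).toAddMonoidHom : AddMonoid.End (Module.End F U)))
    (fun i j => AddMonoidHom.ext fun P => LinearMap.congr_fun (hf.adSub_commute hx i.2 j.2).eq P)
    (fun i => by
      obtain ⟨n, hn⟩ := hf.adSub_nilpotent hx i.2
      let T : AddMonoid.End (Module.End F U) := (hf.adSub x i.1).toAddMonoidHom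
      refine ⟨n, AddMonoidHom.ext fun P => ?_⟩
      have e : ∀ k, (T ^ k) P = (hf.adSub x i.1 ^ k) P := fun k => by
        induction k with
        | zero => rfl
        | succ k ih => rw [pow_succ', pow_succ']; exact congrArg (hf.adSub x i.1) ih
      exact (e n).trans (by rw [hn]; rfl))
    S Z (fun i P hP => sub_mem (hS i.1 i.2 P hP) hP) (fun i P hP => sub_mem (hZ i.1 i.2 P hP) hP) h
  exact ⟨P, hP, hPZ, fun y hy => hfix ⟨y, hy⟩⟩

omit [Finite F] in
/-- An anisotropic vector orthogonal to a hyperbolic pair. -/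
lemma exists_aniso_hyp (ha : 3 ≤ finrank F U) {x x' : U} (h : Hyp f x x') :
    ∃ e, f x e = 0 ∧ f x' e = 0 ∧ f e e ≠ 0 := by
  obtain ⟨w, hw, hwp⟩ := exists_perp_avoid (g := f) ![x, x'] ⊥ (by rw [finrank_bot]; omega)
  have hwx : f x w = 0 := hwp 0
  have hwx' : f x' w = 0 := hwp 1
  have hns : w ∉ Submodule.span F {x, x'} := fun hm => by
    obtain ⟨s, t, hst⟩ := Submodule.mem_span_pair.1 hm
    have e1 := congrArg (f x) hst
    have e2 := congrArg (f x') hst
    simp [h.1, h.2.2, hwx] at e1
    simp [hf.symm x' x, h.2.2, h.2.1, hwx'] at e2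
    exact hw (by rw [← hst, e1, e2]; simp)
  obtain ⟨c, hc, hcS⟩ := hf.exists_pair_sub hns
  obtain ⟨z, hz, hzz⟩ := hf.aniso_of_pair (S := LinearMap.ker (LinearMap.pi fun i => f (![x, x'] i)))
    (x := w) (y := c) (LinearMap.mem_ker.2 (funext fun i => hwp i))
    (LinearMap.mem_ker.2 (funext fun i => by
      fin_cases i
      · exact hcS x (Submodule.subset_span (by simp))
      · exact hcS x' (Submodule.subset_span (by simp))))
    (by rw [hc]; exact one_ne_zero)
  exact ⟨z, congrFun (LinearMap.mem_ker.1 hz) 0, congrFun (LinearMap.mem_ker.1 hz) 1, hzz⟩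

omit [Finite F] [FiniteDimensional F U] in
/-- A vector killing the orthogonal of a hyperbolic pair. -/
lemma eq_comb {x x' r : U} (h : Hyp f x x') (hr : ∀ e, f x e = 0 → f x' e = 0 → f r e = 0) :
    r = f x' r • x + f x r • x' := by
  refine sub_eq_zero.1 (hf.nd _ fun v => ?_)
  have e0 := hr (v - f x' v • x - f x v • x')
    (by simp [h.1, h.2.2]) (by simp [h.2.1, hf.symm x' x, h.2.2])
  simp only [map_sub, map_smul, smul_eq_mul] at e0
  simp only [map_sub, map_add, map_smul, LinearMap.sub_apply, LinearMap.add_apply,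
    LinearMap.smul_apply, smul_eq_mul]
  rw [hf.symm x' r, hf.symm x r]
  linear_combination e0

/-- A self-adjoint map fixed, up to scalars, by the Eichler conjugations. -/
lemma fixed_sym (ha : 3 ≤ finrank F U) (hbig : (∃ t : F, t ≠ 0 ∧ t * t ≠ 1) ∨ 4 ≤ finrank F U)
    {x x' : U} (h : Hyp f x x') {E : Module.End F U} (hE : ∀ p q, f (E p) q = f p (E q))
    (hfix : ∀ y, f x y = 0 → ∃ l : F,
      (1 + sie f x y) * (E * (1 + sie f x (-y))) - E = l • 1) :
    ∃ α μ : F, E = α • 1 + μ • (f x).smulRight x := by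
  have h2 := hf.two
  have hx'x : f x' x = 1 := by rw [hf.symm, h.2.2]
  set q := E x with hq
  set r := E x' with hr
  set α := f x' q with hα
  have key : ∀ y, f x y = 0 → ∃ l : F, ∀ w,
      E w + sie f x y (E w) = E (w + sie f x y w) + l • (w + sie f x y w) := fun y hy => by
    obtain ⟨l, hl⟩ := hfix y hy
    refine ⟨l, fun w => ?_⟩
    have hcomp := hf.sie_comp (y := -y) (y' := y) h.1 (by rw [map_neg, hy, neg_zero]) hy
    rw [neg_add_cancel, sie_zero, add_zero] at hcomp
    have h1 := LinearMap.congr_fun hl (w + sie f x y w)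
    have h2 := LinearMap.congr_fun hcomp w
    simp only [LinearMap.sub_apply, LinearMap.smul_apply, Module.End.mul_apply, LinearMap.add_apply,
      Module.End.one_apply] at h1 h2
    rw [h2, sub_eq_iff_eq_add] at h1
    rw [h1, add_comm]
  have hxq : f x q = 0 := by
    obtain ⟨e, he, he', hee⟩ := hf.exists_aniso_hyp ha h
    obtain ⟨l, hl⟩ := key e he
    have h1 := congrArg (f e) (hl x)
    simp [sie_apply, h.1, hf.perp_symm he, ← hq] at h1
    exact h1.resolve_right hee
  have hl0 : ∀ y, f x y = 0 → ∀ l : F, (∀ w,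
      E w + sie f x y (E w) = E (w + sie f x y w) + l • (w + sie f x y w)) → l = -f y q := by
    intro y hy l hl
    have h1 := congrArg (f x') (hl x)
    simp [sie_apply, h.1, hf.perp_symm hy, ← hq, hxq, hx'x] at h1
    linear_combination -h1
  have htri : ∀ y w z, f x y = 0 → f x w = 0 → f x z = 0 →
      f q w * f y z + f y w * f q z + f y q * f w z = 0 := by
    intro y w z hy hw hz
    obtain ⟨l, hl⟩ := key y hy
    have hl' := hl0 y hy l hl
    have h1 := congrArg (f z) (hl w)
    have hEw : f x (E w) = f q w := by rw [← hE, hq]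
    simp [sie_apply, map_add, map_smul, hw, hEw, hf.perp_symm hz, ← hq, hl', hf.symm z y,
      hf.symm z q, hf.symm z w] at h1
    linear_combination h1
  have hlast : ∀ y, f x y = 0 → f x' y = 0 → 2 * f y r = -(f y y / 2 * f y q) := by
    intro y hy hy'
    obtain ⟨l, hl⟩ := key y hy
    have hl' := hl0 y hy l hl
    have h1 := congrArg (f x') (hl x')
    simp [sie_apply, map_add, map_sub, map_smul, h.2.1, h.2.2, hx'x, hy', ← hq, ← hr, hl',
      hf.perp_symm hy', hf.symm y x', ← hα] at h1
    have e1 : f x r = α := by rw [hr, ← hE, hf.symm]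
    have e2 : f x' (E y) = f y r := by rw [← hE, hf.symm]
    rw [e1, e2] at h1
    linear_combination -h1
  have hqe : ∀ e, f x e = 0 → f x' e = 0 → f q e = 0 := by
    intro e he he'
    rcases hbig with ⟨t, ht0, ht1⟩ | h4
    · by_cases hee : f e e = 0
      · obtain ⟨z, hz, hz', hzz⟩ := hf.exists_aniso_hyp ha h
        have : ∀ z, f x z = 0 → f x' z = 0 → f z z ≠ 0 → f q z = 0 := fun z hz hz' hzz => by
          have h1 := hlast z hz hz'
          have h3 := hlast (t • z) (by simp [hz]) (by simp [hz'])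
          simp only [map_smul, LinearMap.smul_apply, smul_eq_mul] at h3
          have h4 : t * (t * t - 1) * (f z z / 2 * f z q) = 0 := by linear_combination h3 - t * h1
          rw [hf.symm]
          exact ((mul_eq_zero.1 ((mul_eq_zero.1 h4).resolve_left
            (mul_ne_zero ht0 (sub_ne_zero.2 ht1)))).resolve_left (div_ne_zero hzz h2))
        by_cases hze : f z e = 0
        · have h1 := this (z + e) (by simp [hz, he]) (by simp [hz', he'])
            (by simp [hze, hf.symm e z, hee, hzz])
          rwa [map_add, this z hz hz' hzz, zero_add] at h1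
        · by_cases hne : f (z + e) (z + e) = 0
          · have h1 := this (z - e) (by simp [hz, he]) (by simp [hz', he']) (fun h0 => by
              simp [hee, hf.symm e z] at h0 hne
              exact hzz (by
                have : (2 : F) * f z z = 0 := by linear_combination h0 + hne
                exact (mul_eq_zero.1 this).resolve_left h2))
            rwa [map_sub, this z hz hz' hzz, zero_sub, neg_eq_zero] at h1
          · have h1 := this (z + e) (by simp [hz, he]) (by simp [hz', he']) hne
            rwa [map_add, this z hz hz' hzz, zero_add] at h1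
      · have h1 := hlast e he he'
        have h3 := hlast (t • e) (by simp [he]) (by simp [he'])
        simp only [map_smul, LinearMap.smul_apply, smul_eq_mul] at h3
        have h4 : t * (t * t - 1) * (f e e / 2 * f e q) = 0 := by linear_combination h3 - t * h1
        rw [hf.symm]
        exact ((mul_eq_zero.1 ((mul_eq_zero.1 h4).resolve_left
          (mul_ne_zero ht0 (sub_ne_zero.2 ht1)))).resolve_left (div_ne_zero hee h2))
    · obtain ⟨e₁, h11, h12, h13⟩ := hf.exists_aniso_hyp ha h
      obtain ⟨w, hw, hwp⟩ := exists_perp_avoid (g := f) ![x, x', e₁] ⊥ (by rw [finrank_bot]; omega)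
      have hns : w ∉ Submodule.span F {x, x', e₁} := fun hm => by
        obtain ⟨s, t, ⟨hs, hst⟩⟩ : ∃ s t, t ∈ Submodule.span F {x', e₁} ∧ w = s • x + t := by
          obtain ⟨s, t, ht, hst⟩ := Submodule.mem_span_insert.1 hm
          exact ⟨s, t, ht, hst⟩
        obtain ⟨c, d, rfl⟩ := Submodule.mem_span_pair.1 hs
        have e1 : f x w = 0 := hwp 0
        have e2 : f x' w = 0 := hwp 1
        have e3 : f e₁ w = 0 := hwp 2
        simp [hst, h.1, h.2.2, h11] at e1
        simp [hst, h.2.1, hx'x, h12] at e2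
        simp [hst, hf.perp_symm h11, hf.perp_symm h12, h13] at e3
        exact hw (by simp [hst, e1, e2, e3])
      obtain ⟨c, hc, hcS⟩ := hf.exists_pair_sub hns
      obtain ⟨e₂, hz, h23⟩ := hf.aniso_of_pair
        (S := LinearMap.ker (LinearMap.pi fun i => f (![x, x', e₁] i))) (x := w) (y := c)
        (LinearMap.mem_ker.2 (funext fun i => hwp i))
        (LinearMap.mem_ker.2 (funext fun i => by
          fin_cases i <;> exact hcS _ (Submodule.subset_span (by simp))))
        (by rw [hc]; exact one_ne_zero)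
      have h21 : f x e₂ = 0 := congrFun (LinearMap.mem_ker.1 hz) 0
      have h22 : f e₁ e₂ = 0 := congrFun (LinearMap.mem_ker.1 hz) 2
      have hq2 := htri e₁ e₁ e₂ h11 h11 h21
      have hq1 := htri e₂ e₂ e₁ h21 h21 h11
      simp [h22, hf.perp_symm h22, h13] at hq2
      simp [h22, hf.perp_symm h22, h23] at hq1
      have h3 := htri e₁ e₁ e h11 h11 he
      have hq1' : f e₁ q = 0 := by rw [hf.symm, hq1]
      simp [hq1, hq1', h13] at h3
      exact h3
  have hqeq : q = α • x := by
    have := hf.eq_comb h hqe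
    rwa [hxq, zero_smul, add_zero, ← hα] at this
  have hre : ∀ e, f x e = 0 → f x' e = 0 → f r e = 0 := fun e he he' => by
    have h1 := hlast e he he'
    rw [hqeq, map_smul, hf.perp_symm he] at h1
    rw [hf.symm]
    simpa [h2] using h1
  have hreq : r = f x' r • x + α • x' := by
    have := hf.eq_comb h hre
    rwa [show f x r = α by rw [hr, ← hE, hf.symm]] at this
  have hperp : ∀ e, f x e = 0 → f x' e = 0 → E e = α • e := by
    intro e he he'
    refine sub_eq_zero.1 (hf.nd _ fun v => ?_)
    set v₀ := v - f x' v • x - f x v • x' with hv₀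
    have hv1 : f x v₀ = 0 := by simp [hv₀, h.1, h.2.2]
    have hv2 : f x' v₀ = 0 := by simp [hv₀, h.2.1, hx'x]
    have hx_ : f (E e) x = 0 := by rw [hE, ← hq, hqeq, map_smul, hf.perp_symm he, smul_zero]
    have hx'_ : f (E e) x' = 0 := by
      rw [hE, ← hr, hreq, map_add, map_smul, map_smul, hf.perp_symm he, hf.perp_symm he', smul_zero,
        smul_zero, add_zero]
    obtain ⟨l, hl⟩ := key v₀ hv1
    have hl' : l = 0 := by rw [hl0 v₀ hv1 l hl, hqeq, map_smul, hf.perp_symm hv1, smul_zero, neg_zero]
    have h1 := congrArg (f x') (hl e)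
    simp [sie_apply, he, hl', hx'x, hv2, hf.symm x (E e), hx_, ← hq, hqeq, hf.symm x' (E e), hx'_] at h1
    have hve : f (E e) v₀ = α * f e v₀ := by
      rw [hf.symm (E e), hf.symm e v₀]; linear_combination h1
    rw [show v = v₀ + f x' v • x + f x v • x' by rw [hv₀]; abel]
    simp [map_add, map_smul, hx_, hx'_, hve, hf.perp_symm he, hf.perp_symm he']
  obtain ⟨γ, hγ⟩ : ∃ γ, γ = f x' r := ⟨_, rfl⟩
  rw [← hγ] at hreq
  refine ⟨α, γ, LinearMap.ext fun v => ?_⟩
  conv_lhs => rw [show v = (v - f x' v • x - f x v • x') + f x' v • x + f x v • x' by abel]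
  rw [map_add, map_add, map_smul, map_smul, ← hq, ← hr,
    hperp _ (by simp [h.1, h.2.2]) (by simp [h.2.1, hx'x]), hqeq, hreq]
  simp only [LinearMap.add_apply, LinearMap.smul_apply, Module.End.one_apply, LinearMap.smulRight_apply]
  module

/-- A skew map fixed by the Eichler conjugations. -/
lemma fixed_skew (ha : 3 ≤ finrank F U) {x x' : U} (h : Hyp f x x') {P : Module.End F U}
    (hP : ∀ p q, f (P p) q = - f p (P q))
    (hfix : ∀ y, f x y = 0 → (1 + sie f x y) * (P * (1 + sie f x (-y))) - P = 0) :
    f x (P x') = 0 ∧ f x' (P x') = 0 ∧ P = wed f (P x') x := by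
  have h2 := hf.two
  have hx'x : f x' x = 1 := by rw [hf.symm, h.2.2]
  have key : ∀ y, f x y = 0 → ∀ w, P w + sie f x y (P w) = P (w + sie f x y w) := fun y hy w => by
    have hcomp := hf.sie_comp (y := -y) (y' := y) h.1 (by rw [map_neg, hy, neg_zero]) hy
    rw [neg_add_cancel, sie_zero, add_zero] at hcomp
    have h1 := LinearMap.congr_fun (hfix y hy) (w + sie f x y w)
    have h2 := LinearMap.congr_fun hcomp w
    simp only [LinearMap.sub_apply, LinearMap.zero_apply, Module.End.mul_apply, LinearMap.add_apply,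
      Module.End.one_apply] at h1 h2
    rw [h2, sub_eq_zero] at h1
    exact h1
  obtain ⟨e, he, he', hee⟩ := hf.exists_aniso_hyp ha h
  set q := P x
  have hskew : ∀ p, f (P p) p = 0 := fun p => by
    have := hP p p
    rw [hf.symm p (P p)] at this
    have : (2 : F) * f (P p) p = 0 := by linear_combination this
    exact (mul_eq_zero.1 this).resolve_left h2
  have hxq : f x q = 0 := by rw [hf.symm]; exact hskew x
  have hqy : ∀ y, f x y = 0 → f y q = 0 := fun y hy => by
    have h1 := congrArg (f x') (key y hy x)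
    simpa [sie_apply, h.1, hf.perp_symm hy, show P x = q from rfl, hxq, hx'x] using h1
  have hqeq : q = f x' q • x := by
    have := hf.eq_comb h (r := q) (fun e he _ => by rw [hf.symm]; exact hqy e he)
    rwa [hxq, zero_smul, add_zero] at this
  have hin : ∀ y w, f x y = 0 → f x w = 0 → f y (P w) = f x' q * f y w := by
    intro y w hy hw
    have h1 := congrArg (f x') (key y hy w)
    have hxw : f x (P w) = 0 := by
      have e0 := hP x w
      rw [hf.symm] at e0
      have : f x (P w) = -f w q := by linear_combination e0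
      rw [this, hqy w hw, neg_zero]
    simp [sie_apply, hw, hxw, hx'x] at h1
    linear_combination h1
  have hα : f x' q = 0 := by
    have h1 := hin e e he he
    rw [hf.symm, hskew e] at h1
    exact (mul_eq_zero.1 h1.symm).resolve_right hee
  have hq0 : q = 0 := by rw [hqeq, hα, zero_smul]
  have hr1 : f x (P x') = 0 := by
    have := hP x x'
    rw [show P x = q from rfl, hq0, map_zero, LinearMap.zero_apply] at this
    exact neg_eq_zero.1 this.symm
  have hr2 : f x' (P x') = 0 := by rw [hf.symm]; exact hskew x'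
  refine ⟨hr1, hr2, LinearMap.ext fun v => ?_⟩
  refine sub_eq_zero.1 (hf.nd _ fun z => ?_)
  set v₀ := v - f x' v • x - f x v • x' with hv₀
  set z₀ := z - f x' z • x - f x z • x' with hz₀
  have hv1 : f x v₀ = 0 := by simp [hv₀, h.1, h.2.2]
  have hz1 : f x z₀ = 0 := by simp [hz₀, h.1, h.2.2]
  have ev : v = v₀ + f x' v • x + f x v • x' := by rw [hv₀]; abel
  have ez : z = z₀ + f x' z • x + f x z • x' := by rw [hz₀]; abel
  have hzv : f z₀ (P v₀) = 0 := by rw [hin z₀ v₀ hz1 hv1, hα, zero_mul]
  have hPx : P x = 0 := hq0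
  have e1 : f x (P v₀) = 0 := by
    have := hP x v₀
    rw [hPx, map_zero, LinearMap.zero_apply] at this
    exact neg_eq_zero.1 this.symm
  have e2 : f x' (P v₀) = - f (P x') v₀ := by rw [hP x' v₀, neg_neg]
  have hv2 : f x' v₀ = 0 := by simp [hv₀, h.2.1, hx'x]
  have hz2 : f x' z₀ = 0 := by simp [hz₀, h.2.1, hx'x]
  rw [map_sub, LinearMap.sub_apply, sub_eq_zero, hf.symm _ z, hf.symm _ z]
  conv_lhs => rw [ev, ez]
  conv_rhs => rw [ev, ez]
  simp [wed_apply, map_add, map_smul, map_sub, hPx, hzv, e1, e2, hr1, hr2, h.1, h.2.1, h.2.2, hx'x,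
    hv1, hv2, hz1, hz2, hf.perp_symm hz1, hf.perp_symm hz2, hf.symm (P x') x, hf.symm (P x') x']

omit hf [Finite F] [FiniteDimensional F U] in
lemma wed_self (p : U) : wed f p p = 0 := LinearMap.ext fun w => by simp [wed_apply]

omit hf [Finite F] [FiniteDimensional F U] in
lemma wed_add (p p' q : U) : wed f (p + p') q = wed f p q + wed f p' q :=
  LinearMap.ext fun w => by simp [wed_apply]; module

omit hf [Finite F] [FiniteDimensional F U] in
lemma wed_swap (p q : U) : wed f p q = - wed f q p := LinearMap.ext fun w => by simp [wed_apply]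

omit hf [Finite F] [FiniteDimensional F U] in
lemma wed_smul (c : F) (p q : U) : wed f (c • p) q = c • wed f p q :=
  LinearMap.ext fun w => by simp [wed_apply]; module

omit hf [Finite F] [FiniteDimensional F U] in
lemma wed_smul' (c : F) (p q : U) : wed f p (c • q) = c • wed f p q :=
  LinearMap.ext fun w => by simp [wed_apply]; module

omit hf [Finite F] [FiniteDimensional F U] in
lemma wed_add' (p q q' : U) : wed f p (q + q') = wed f p q + wed f p q' :=
  LinearMap.ext fun w => by simp [wed_apply]; module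

omit [Finite F] [FiniteDimensional F U] in
/-- Conjugation moves the two vectors. -/
lemma wed_conj {x y : U} (hx : f x x = 0) (hy : f x y = 0) (p q : U) :
    (1 + sie f x y) * (wed f p q * (1 + sie f x (-y))) =
      wed f (p + sie f x y p) (q + sie f x y q) := by
  refine LinearMap.ext fun w => ?_
  have hinv := hf.sie_comp (y := y) (y' := -y) hx hy (by rw [map_neg, hy, neg_zero])
  rw [add_neg_cancel, sie_zero, add_zero] at hinv
  have hw := LinearMap.congr_fun hinv w
  simp only [Module.End.mul_apply, Module.End.one_apply, LinearMap.add_apply] at hw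
  set w' := w + sie f x (-y) w
  have e : ∀ p, f (p + sie f x y p) w = f p w' := fun p => by
    conv_lhs => rw [← hw]
    exact hf.sie_skew hx hy p w'
  simp only [Module.End.mul_apply, Module.End.one_apply, LinearMap.add_apply, wed_apply, e, map_sub,
    map_smul]
  module

section Closed

variable {S : AddSubgroup (Module.End F U)}
  (hS : ∀ x y, f x x = 0 → f x y = 0 → ∀ p q, wed f p q ∈ S →
    wed f (p + sie f x y p) (q + sie f x y q) ∈ S)
include hS

lemma hyp_of_aniso {x x' e : U} (h : Hyp f x x') (he : f x e = 0) (he' : f x' e = 0)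
    (hee : f e e ≠ 0) (hm : wed f e x ∈ S) (c : F) : c • wed f x x' ∈ S := by
  have h2 := hf.two
  have hx'x : f x' x = 1 := by rw [hf.symm, h.2.2]
  have step : ∀ s : F, wed f (e - (s * f e e) • x') (x + s • e - (s * s * f e e / 2) • x') ∈ S :=
    fun s => by
    convert hS x' (s • e) h.2.1 (by simp [he']) e x hm using 2
    · simp [sie_apply, he', hf.symm e x']
      module
    · simp [sie_apply, hx'x, hf.perp_symm he]
      match_scalars <;> field_simp <;> ring
  set σ := c / f e e with hσ
  apply mem_of_add_self h2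
  convert sub_mem (step σ) (step (-σ)) using 1
  refine LinearMap.ext fun w => ?_
  simp [wed_apply, hσ]
  match_scalars <;> field_simp <;> ring

lemma exists_all_hyp (ha : 3 ≤ finrank F U)
    (hU : ∀ x x' w, Hyp f x x' → f x w = 0 → f x' w = 0 → f w w = 0 → w ≠ 0 →
      ∃ e, f x e = 0 ∧ f x' e = 0 ∧ f w e = 0 ∧ f e e ≠ 0)
    {x x' w : U} (h : Hyp f x x') (hw1 : f x w = 0) (hw2 : f x' w = 0) (hw0 : w ≠ 0)
    (hm : wed f w x ∈ S) : ∃ p p', Hyp f p p' ∧ ∀ c : F, c • wed f p p' ∈ S := by
  have h2 := hf.two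
  have hx'x : f x' x = 1 := by rw [hf.symm, h.2.2]
  by_cases hww : f w w = 0
  swap
  · exact ⟨x, x', h, hf.hyp_of_aniso hS h hw1 hw2 hww hm⟩
  obtain ⟨e, he1, he2, hew, hee⟩ := hU x x' w h hw1 hw2 hww hw0
  have hwe : w ∉ F ∙ e := fun hmem => by
    obtain ⟨t, rfl⟩ := Submodule.mem_span_singleton.1 hmem
    simp [hee] at hww
    exact hw0 (by rw [hww, zero_smul])
  obtain ⟨w', hw', hperp⟩ := hf.exists_hyp_perp hww hwe (fun z hz => by
    obtain ⟨t, rfl⟩ := Submodule.mem_span_singleton.1 hz
    simp [hf.perp_symm hew])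
  have he'w : f w' e = 0 := by rw [hf.symm]; exact hperp e (Submodule.mem_span_singleton_self e)
  refine ⟨w, w', hw', hf.hyp_of_aniso hS hw' hew he'w hee ?_⟩
  have step : ∀ s : F, wed f w (x + s • e - (s * s * f e e / 2) • x') ∈ S := fun s => by
    convert hS x' (s • e) h.2.1 (by simp [he2]) w x hm using 2
    · simp [sie_apply, hw2, hf.perp_symm hew]
    · simp [sie_apply, hx'x, hf.perp_symm he1]
      match_scalars <;> field_simp <;> ring
  rw [wed_swap, neg_mem_iff]
  apply mem_of_add_self h2
  convert sub_mem (step 1) (step (-1)) using 1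
  refine LinearMap.ext fun v => ?_
  simp [wed_apply]
  module

lemma all_wed_of_hyp {x x' : U} (h : Hyp f x x') (hm : ∀ c : F, c • wed f x x' ∈ S) (p q : U) :
    wed f p q ∈ S := by
  have h2 := hf.two
  have hx'x : f x' x = 1 := by rw [hf.symm, h.2.2]
  have one : ∀ x x', Hyp f x x' → (∀ c : F, c • wed f x x' ∈ S) → ∀ y, f x y = 0 → f x' y = 0 →
      wed f y x' ∈ S := fun x x' h hm y hy hy' => by
    have hm1 : wed f x x' ∈ S := by simpa using hm 1
    have := hS x' y h.2.1 hy' x x' hm1
    convert sub_mem this hm1 using 1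
    refine LinearMap.ext fun v => ?_
    simp [sie_apply, wed_apply, hy', hf.perp_symm hy, hf.symm x' x, h.2.2, h.2.1, hf.perp_symm hy']
    module
  have hm' : ∀ c : F, c • wed f x' x ∈ S := fun c => by
    rw [wed_swap, smul_neg]; exact neg_mem (hm c)
  have y1 := one x x' h hm
  have y2 : ∀ y, f x y = 0 → f x' y = 0 → wed f y x ∈ S := fun y hy hy' =>
    one x' x (hf.hyp_symm h) hm' y hy' hy
  have y3 : ∀ y z, f x y = 0 → f x' y = 0 → f x z = 0 → f x' z = 0 → wed f y z ∈ S := by
    intro y z hy hy' hz hz'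
    have h1 := hS x z h.1 hz y x' (y1 y hy hy')
    have h3 : f z y • wed f x x' ∈ S := hm _
    have h4 : wed f ((f z z / 2) • y) x ∈ S := y2 _ (by simp [hy]) (by simp [hy'])
    have h5 : wed f (f z y • z) x ∈ S := y2 _ (by simp [hz]) (by simp [hz'])
    convert sub_mem (add_mem (add_mem (sub_mem h1 (y1 y hy hy')) h4) h3) h5 using 1
    refine LinearMap.ext fun v => ?_
    simp [sie_apply, wed_apply, hy, h.2.2, hf.perp_symm hz']
    module
  have ep : ∀ p, ∃ y, f x y = 0 ∧ f x' y = 0 ∧ p = f x' p • x + f x p • x' + y := fun p =>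
    ⟨p - f x' p • x - f x p • x', by simp [h.1, h.2.2], by simp [h.2.1, hx'x], by abel⟩
  obtain ⟨y, hy, hy', ey⟩ := ep p
  obtain ⟨z, hz, hz', ez⟩ := ep q
  set a₁ := f x' p
  set a₂ := f x p
  set b₁ := f x' q
  set b₂ := f x q
  have e : wed f p q = (a₁ * b₂ - a₂ * b₁) • wed f x x' + wed f (b₁ • y) x + wed f (b₂ • y) x' -
      wed f (a₁ • z) x - wed f (a₂ • z) x' + wed f y z := by
    rw [ey, ez]
    refine LinearMap.ext fun v => ?_
    simp [wed_apply]
    module
  rw [e]
  exact add_mem (sub_mem (sub_mem (add_mem (add_mem (hm _) (y2 _ (by simp [hy]) (by simp [hy'])))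
    (y1 _ (by simp [hy]) (by simp [hy']))) (y2 _ (by simp [hz]) (by simp [hz'])))
    (y1 _ (by simp [hz]) (by simp [hz']))) (y3 y z hy hy' hz hz')

end Closed

end Sym

end Cfsg.Agent.MaxSub.OrthTensor
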