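import Cfsg.Agent.MaxSub.OrthTensor.Pairing
import Cfsg.Agent.MaxSub.TensorMax.Main
import Cfsg.Agent.MaxSub.TensorMax.SympAlt

/-!
Without root elements at pure singular tensors all members preserve the decomposition.
-/

set_option autoImplicit false
set_option linter.unusedSectionVars false

namespace Cfsg.Agent.MaxSub.OrthTensor

open Module Matrix QuadraticMap Cfsg.Agent.MaxSub.TensorMax Cfsg.Agent.Classical

variable {F : Type*} [Field F] {a b : ℕ}

namespace TD

variable {D : TD F a b} {M : Subgroup (OQ D.Q)} [Finite F]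

/-- A map commuting with all long root elements acts on the first factor. -/
lemma eq_leftMap (hb : 5 ≤ b) {Z : Module.End F (Matrix (Fin a) (Fin b) F)}
    (hZ : ∀ v c, Pair₂ D.g v c → D.nn v c * Z = Z * D.nn v c) : ∃ κ, Z = leftMap κ := by
  have hb' : 5 ≤ finrank F (Fin b → F) := by rw [finrank_fin_fun]; exact hb
  have s : ∀ {x y}, D.g x y = 0 → D.g y x = 0 := fun h => D.hg.perp_symm h
  have row0 : ∀ X, D.row (0 : Fin b → F) X = (0 : Fin a → F) := fun X => by
    simp [row, rowMap_apply]
  have col0 : ∀ u : Fin a → F, colMap (0 : Fin b → F) u = (0 : Matrix (Fin a) (Fin b) F) := fun u => by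
    ext i j; simp [colMap_apply, vecMulVec_apply]
  have key : ∀ v c, Pair₂ D.g v c → ∀ x y, D.g v x • D.phi Z c y - D.g c x • D.phi Z v y =
      D.g y c • D.phi Z x v - D.g y v • D.phi Z x c := by
    intro v c hp x y
    refine LinearMap.ext fun u => ?_
    have := congrArg (fun T : Module.End F (Matrix (Fin a) (Fin b) F) => D.row x (T (colMap y u)))
      (hZ v c hp)
    simp only [Module.End.mul_apply, nn_apply, row_col, map_sub, map_smul] at this
    simpa [phi_apply] using this
  have horth : ∀ v, D.g v v = 0 → v ≠ 0 → ∀ y, D.g v y = 0 →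
      D.phi Z v y = 0 ∧ D.phi Z y v = 0 := by
    intro v hv hv0
    have base : ∀ c, Pair₂ D.g v c → ∀ y, D.g v y = 0 → D.g c y = 0 →
        D.phi Z v y = 0 ∧ D.phi Z y v = 0 := by
      intro c hp y h1 h2
      obtain ⟨v', c', hv', hc', h3, h4, h5⟩ := D.hg.exists_companions hp
      have e1 := key v c hp c' y
      have e2 := key v c hp y c'
      simp [h4, hc'.2.2, s h1, s h2] at e1
      simp [h1, h2, s h4, D.hg.symm c' c, hc'.2.2] at e2
      exact ⟨e1, e2.symm⟩
    obtain ⟨v', hv'⟩ := D.hg.exists_hyp hv hv0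
    obtain ⟨c, c', hp, hc, h1, h2, h3⟩ := D.hg.exists_second hb' hv'
    have hker : LinearMap.ker (D.g v) ≤
        LinearMap.ker (D.phiB Z v) ⊓ LinearMap.ker ((D.phiB Z).flip v) := by
      refine D.hg.le_of_iso hc (LinearMap.mem_ker.2 hp.2.2.2.2) (LinearMap.mem_ker.2 h1)
        fun w hw hww => ?_
      have hvw : D.g v w = 0 := LinearMap.mem_ker.1 hw
      have h : D.phi Z v w = 0 ∧ D.phi Z w v = 0 := by
        by_cases hwv : w ∈ F ∙ v
        · obtain ⟨t, rfl⟩ := Submodule.mem_span_singleton.1 hwv
          obtain ⟨e, e'⟩ := base c hp v hv (s hp.2.2.2.2)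
          simp [phi_smul_left, phi_smul_right, e]
        · exact base w ⟨hv0, hwv, hv, hww, hvw⟩ w hvw hww
      exact ⟨LinearMap.mem_ker.2 h.1, LinearMap.mem_ker.2 h.2⟩
    intro y hy
    have := hker (LinearMap.mem_ker.2 hy : y ∈ LinearMap.ker (D.g v))
    exact ⟨LinearMap.mem_ker.1 this.1, LinearMap.mem_ker.1 this.2⟩
  have hprop : ∀ v v', Hyp D.g v v' → ∀ y, D.phi Z v y = D.g v y • D.phi Z v v' ∧
      D.phi Z y v = D.g v y • D.phi Z v' v := by
    intro v v' hv y
    have hv0 : v ≠ 0 := fun h => by have := hv.2.2; simp [h] at this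
    obtain ⟨h1, h2⟩ := horth v hv.1 hv0 (y + (-D.g v y) • v') (by simp [hv.2.2])
    rw [phi_add_right, phi_smul_right] at h1
    rw [phi_add_left, phi_smul_left] at h2
    constructor
    · linear_combination (norm := module) h1
    · linear_combination (norm := module) h2
  obtain ⟨v, v', hv⟩ := D.hg.exists_hyp_any hb'
  have hv0 : v ≠ 0 := fun h => by have := hv.2.2; simp [h] at this
  have hv'0 : v' ≠ 0 := fun h => by have := hv.2.2; simp [h] at this
  obtain ⟨c, c', hp, hc, h1, h2, h3⟩ := D.hg.exists_second hb' hv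
  have e1 : D.g v' v = 1 := by rw [D.hg.symm, hv.2.2]
  have e2 : D.g c' c = 1 := by rw [D.hg.symm, hc.2.2]
  set κ := D.phi Z v v' with hκ
  have hsw : D.phi Z v' v = κ := by
    have hp' : Pair₂ D.g v' c := ⟨hv'0, fun hm => by
      obtain ⟨t, ht⟩ := Submodule.mem_span_singleton.1 hm
      have := congrArg (D.g v) ht
      simp [hv.2.2, hp.2.2.2.2] at this
      subst this
      have := hc.2.2
      simp [← ht] at this, hv.2.1, hc.1, h2⟩
    have k1 := key v c hp v' c'
    have k2 := key v' c hp' v c'
    simp [hv.2.2, e1, e2, s h2, s hp.2.2.2.2, s h1, s h3] at k1 k2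
    exact k1.symm.trans k2
  have hκall : ∀ w y, D.g w w = 0 → D.g v w ≠ 0 → D.phi Z w y = D.g w y • κ := by
    intro w y hw hvw
    have hwh : Hyp D.g w ((D.g w v)⁻¹ • v) := ⟨hw, by simp [hv.1], by
      simp [inv_mul_cancel₀ (show D.g w v ≠ 0 by rwa [D.hg.symm])]⟩
    have h := (hprop w _ hwh y).1
    have h' := (hprop v v' hv w).2
    rw [phi_smul_right, h', hsw, D.hg.symm w v, inv_smul_smul₀ hvw] at h
    exact h
  let T : Submodule F (Fin b → F) :=
    { carrier := {w | ∀ y, D.phi Z w y = D.g w y • κ}
      zero_mem' := fun y => LinearMap.ext fun u => by simp [phi_apply, row0]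
      add_mem' := fun {w w'} hw hw' y => by
        rw [phi_add_left, hw, hw', map_add, LinearMap.add_apply, add_smul]
      smul_mem' := fun t w hw y => by
        rw [phi_smul_left, hw, map_smul, LinearMap.smul_apply, smul_eq_mul, smul_smul] }
  have hT : T = ⊤ := D.hg.span_affine hb' hv.1 hv0 fun w hw hvw y => hκall w y hw hvw
  refine ⟨κ, ext_entries (D := D) fun x y u => ?_⟩
  rw [leftMap_colMap, row_col, ← phi_apply, (hT ▸ Submodule.mem_top : x ∈ T) y, D.hg.symm y x]
  rfl

omit [Finite F] in
lemma leftMap_injective (hb : 0 < b) {A A' : Module.End F (Fin a → F)}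
    (h : leftMap (b := b) A = leftMap A') : A = A' := LinearMap.ext fun u => by
  refine colMap_injective (v := (Pi.single ⟨0, hb⟩ 1 : Fin b → F))
    (fun h0 => one_ne_zero (by simpa using congrFun h0 ⟨0, hb⟩ : (1 : F) = 0)) ?_
  rw [← leftMap_colMap, h, leftMap_colMap]

omit [Finite F] in
lemma leftMap_mul (A A' : Module.End F (Fin a → F)) :
    leftMap (b := b) (A * A') = leftMap A * leftMap A' :=
  LinearMap.ext fun X => (leftMap_leftMap A A' X).symm

omit [Finite F] in
/-- A map commuting with the first factor acts on the second one. -/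
lemma eq_mul_right (ha : 0 < a) {L : Module.End F (Matrix (Fin a) (Fin b) F)}
    (hL : ∀ A, leftMap A * L = L * leftMap A) :
    ∃ B : Matrix (Fin b) (Fin b) F, ∀ X, L X = X * B := by
  classical
  set i₀ : Fin a := ⟨0, ha⟩
  refine ⟨Matrix.of fun j k => L (colMap (Pi.single j 1) (Pi.single i₀ 1)) i₀ k, fun X => ?_⟩
  have e : ∀ j (u : Fin a → F) i k, L (colMap (Pi.single j 1) u) i k =
      u i * L (colMap (Pi.single j 1) (Pi.single i₀ 1)) i₀ k := by
    intro j u i k
    let A : Module.End F (Fin a → F) := (LinearMap.proj i₀ : (Fin a → F) →ₗ[F] F).smulRight u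
    have h := LinearMap.congr_fun (hL A) (colMap (Pi.single j 1) (Pi.single i₀ 1))
    rw [Module.End.mul_apply, Module.End.mul_apply, leftMap_colMap,
      show A (Pi.single i₀ 1) = u by simp [A]] at h
    rw [← h]
    show (LinearMap.toMatrix' A * L _) i k = _
    rw [Matrix.mul_apply, Finset.sum_eq_single i₀]
    · simp [A, LinearMap.toMatrix'_apply]
    · intro l _ hl; simp [A, LinearMap.toMatrix'_apply, hl.symm]
    · simp
  conv_lhs => rw [eq_sum_colMap X, map_sum]
  refine Matrix.ext fun i k => ?_
  rw [Matrix.sum_apply]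
  exact Finset.sum_congr rfl fun j _ => by rw [e]; rfl

/-- All members preserve the decomposition. -/
theorem tens_of_mem (hD : D.Dims) (hab : a < b) (hM : D.Good M)
    (hno : ∀ w, D.g w w = 0 → w ≠ 0 → ¬ D.Roots M w) {h : OQ D.Q} (hh : h ∈ M) : Tens h.1 := by
  classical
  have ha : 0 < a := by have := hD.three; omega
  have hb0 : 0 < b := by omega
  let hE : Module.End F (Matrix (Fin a) (Fin b) F) := h.1.toLinearMap
  let hI : Module.End F (Matrix (Fin a) (Fin b) F) := h.1.symm.toLinearMap
  have hEI : hE * hI = 1 := LinearMap.ext fun X => h.1.apply_symm_apply X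
  have hIE : hI * hE = 1 := LinearMap.ext fun X => h.1.symm_apply_apply X
  have hZ : ∀ A, ∃ κ, hI * leftMap A * hE = leftMap κ := by
    intro A
    refine eq_leftMap (D := D) hD.five fun v c hp => ?_
    have hlong : D.Long M (hE * D.nn v c * hI) := by
      refine ⟨?_, ?_, fun t => (nn_mem hM hp t).conj hh fun X => ?_⟩
      · rw [show hE * D.nn v c * hI * (hE * D.nn v c * hI) =
          hE * (D.nn v c * (hI * hE) * D.nn v c) * hI by simp only [mul_assoc], hIE, mul_one,
          nn_sq hp, mul_zero, zero_mul]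
      · rw [← finrank_range_nn hp, Module.End.mul_eq_comp, Module.End.mul_eq_comp,
          LinearMap.comp_assoc, LinearMap.range_comp]
        exact (Submodule.finrank_map_le _ _).trans
          (Submodule.finrank_mono (LinearMap.range_comp_le_range _ _))
      · show _ = t • h.1 (D.nn v c (h.1.symm (h.1 X)))
        rw [LinearEquiv.symm_apply_apply, LinearMap.smul_apply, map_smul]
    have e := long_commute hD hM hno hlong hab A
    have e' := congrArg (fun T => hI * T * hE) e
    calc D.nn v c * (hI * leftMap A * hE)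
        = (hI * hE) * (D.nn v c * (hI * leftMap A * hE)) := by rw [hIE, one_mul]
      _ = hI * (hE * D.nn v c * hI * leftMap A) * hE := by simp only [mul_assoc]
      _ = hI * (leftMap A * (hE * D.nn v c * hI)) * hE := e'.symm
      _ = hI * leftMap A * hE * D.nn v c * (hI * hE) := by simp only [mul_assoc]
      _ = hI * leftMap A * hE * D.nn v c := by rw [hIE, mul_one]
  choose σ hσ using hZ
  have hmul : ∀ A A', σ (A * A') = σ A * σ A' := fun A A' => leftMap_injective (b := b) hb0 (by
    rw [← hσ, leftMap_mul, leftMap_mul, ← hσ, ← hσ,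
      show hI * leftMap A * hE * (hI * leftMap A' * hE) =
        hI * leftMap A * (hE * hI) * leftMap A' * hE by simp only [mul_assoc], hEI, mul_one]
    simp only [mul_assoc])
  have hinj : ∀ A A', σ A = σ A' → A = A' := fun A A' e => leftMap_injective (b := b) hb0 (by
    have e1 := (hσ A).trans ((congrArg leftMap e).trans (hσ A').symm)
    have e2 := congrArg (fun T => hE * T * hI) e1
    have e3 : ∀ T : Module.End F (Matrix (Fin a) (Fin b) F), hE * (hI * T * hE) * hI = T := fun T => by
      rw [show hE * (hI * T * hE) * hI = (hE * hI) * T * (hE * hI) by simp only [mul_assoc], hEI,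
        one_mul, mul_one]
    rwa [e3, e3] at e2)
  have hadd : ∀ A A', σ (A + A') = σ A + σ A' := fun A A' => leftMap_injective (b := b) hb0 (by
    rw [← hσ]
    refine LinearMap.ext fun X => ?_
    have e : ∀ B B' : Module.End F (Fin a → F), leftMap (b := b) (B + B') = leftMap B + leftMap B' :=
      fun B B' => LinearMap.ext fun X => by
        show LinearMap.toMatrix' (B + B') * X = _
        rw [map_add, Matrix.add_mul]; rfl
    rw [e, e, mul_add, add_mul, ← hσ, ← hσ])
  have hsmul : ∀ (t : F) A, σ (t • A) = t • σ A := fun t A => leftMap_injective (b := b) hb0 (by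
    have e : ∀ B : Module.End F (Fin a → F), leftMap (b := b) (t • B) = t • leftMap B :=
      fun B => LinearMap.ext fun X => by
        show LinearMap.toMatrix' (t • B) * X = _
        rw [map_smul, Matrix.smul_mul]; rfl
    rw [← hσ, e, e, ← hσ, mul_smul_comm, smul_mul_assoc])
  let φ : (Fin a → F) →ₗ[F] F := LinearMap.proj (⟨0, ha⟩ : Fin a)
  set u₀ : Fin a → F := Pi.single ⟨0, ha⟩ 1
  obtain ⟨p, hp⟩ : ∃ p, σ (φ.smulRight u₀) p ≠ 0 := by
    by_contra hc
    push Not at hc
    have h0 : σ 0 = 0 := by simpa using hsmul 0 0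
    have := hinj _ _ ((LinearMap.ext hc).trans h0.symm)
    have := congrFun (LinearMap.congr_fun this u₀) ⟨0, ha⟩
    simp [φ, u₀] at this
  let S : Module.End F (Fin a → F) :=
    { toFun := fun u => σ (φ.smulRight u) p
      map_add' := fun u u' => by
        rw [show φ.smulRight (u + u') = φ.smulRight u + φ.smulRight u' from
          LinearMap.ext fun w => by simp [smul_add], hadd, LinearMap.add_apply]
      map_smul' := fun t u => by
        rw [show φ.smulRight (t • u) = t • φ.smulRight u from
          LinearMap.ext fun w => by ext i; simp; ring, hsmul, LinearMap.smul_apply, RingHom.id_apply] }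
  have hS : ∀ A, σ A * S = S * A := fun A => LinearMap.ext fun u => by
    show σ A (σ (φ.smulRight u) p) = σ (φ.smulRight (A u)) p
    rw [← Module.End.mul_apply, ← hmul,
      show A * φ.smulRight u = φ.smulRight (A u) from LinearMap.ext fun w => by simp]
  have hSinj : Function.Injective S := by
    rw [← LinearMap.ker_eq_bot, LinearMap.ker_eq_bot']
    intro u hu
    by_contra hu0
    obtain ⟨i, hi⟩ := Function.ne_iff.1 hu0
    have := LinearMap.congr_fun (hS ((LinearMap.proj i : (Fin a → F) →ₗ[F] F).smulRight u₀)) u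
    rw [Module.End.mul_apply, Module.End.mul_apply, hu, map_zero] at this
    simp only [LinearMap.smulRight_apply, LinearMap.proj_apply, map_smul] at this
    exact (smul_eq_zero.1 this.symm).elim hi hp
  obtain ⟨R, hR⟩ : ∃ R, S * R = 1 := by
    let Se := LinearEquiv.ofBijective S ⟨hSinj, LinearMap.injective_iff_surjective.1 hSinj⟩
    exact ⟨Se.symm.toLinearMap, LinearMap.ext fun u => Se.apply_symm_apply u⟩
  obtain ⟨B, hB⟩ := eq_mul_right ha (L := hE * leftMap S) (fun A => by
    calc leftMap A * (hE * leftMap S) = (hE * hI) * (leftMap A * (hE * leftMap S)) := by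
          rw [hEI, one_mul]
      _ = hE * (hI * leftMap A * hE) * leftMap S := by simp only [mul_assoc]
      _ = hE * leftMap S * leftMap A := by
          rw [hσ, mul_assoc, ← leftMap_mul, hS, leftMap_mul, ← mul_assoc])
  refine ⟨LinearMap.toMatrix' R, B, fun X => ?_⟩
  refine Eq.trans ?_ (hB (leftMap R X))
  show h.1 X = h.1 (leftMap S (leftMap R X))
  rw [← Module.End.mul_apply, ← leftMap_mul, hR]
  congr 1
  show X = LinearMap.toMatrix' (1 : Module.End F (Fin a → F)) * X
  rw [Module.End.one_eq_id, LinearMap.toMatrix'_id, Matrix.one_mul]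

end TD

end Cfsg.Agent.MaxSub.OrthTensor
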