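import Cfsg.Agent.MaxSub.OrthTensor.Centres
import Cfsg.Agent.MaxSub.OrthTensor.Scalar
import Cfsg.Agent.MaxSub.TensorMax.SympMain
import Cfsg.Agent.Forms.OmegaCrit
import Cfsg.Agent.OrthMax.Proper

/-!
The stabiliser of a decomposition into two orthogonal factors is maximal in `Ω`.
-/

set_option autoImplicit false
set_option linter.unusedSectionVars false

namespace Cfsg.Agent.MaxSub.OrthTensor

open Module Matrix QuadraticMap Cfsg.Agent.MaxSub.TensorMax Cfsg.Geo Cfsg.Agent.Classical
open Cfsg.Agent.GeoClasses (glKron glReindex_apply toQF oqToGL oqToGL_mulVec map_oqToGL_commutator bNondeg_toQF)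
open scoped Kronecker MatrixGroups

variable {F : Type*} [Field F] [Finite F] {a b : ℕ}

namespace TD

variable {D : TD F a b}

omit [Finite F] in
/-- An endomorphism that respects the form on pure tensors is an isometry. -/
lemma exists_isom {L K : Module.End F (Matrix (Fin a) (Fin b) F)} (h1 : L * K = 1) (h2 : K * L = 1)
    (hpol : ∀ w u z q, polar D.Q (L (colMap w u)) (L (colMap z q)) =
      polar D.Q (colMap w u) (colMap z q)) :
    ∃ k : OQ D.Q, ∀ X, k.1 X = L X := by
  have hall : ∀ X Y, polar D.Q (L X) (L Y) = polar D.Q X Y := fun X Y =>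
    ext_colMap (φ := D.Q.polarBilin.flip (L Y) ∘ₗ L) (ψ := D.Q.polarBilin.flip Y) (fun w u =>
      ext_colMap (φ := D.Q.polarBilin (L (colMap w u)) ∘ₗ L) (ψ := D.Q.polarBilin (colMap w u))
        (fun z q => hpol w u z q) Y) X
  refine ⟨⟨LinearEquiv.ofLinear L K h1 h2, fun X => ?_⟩, fun X => rfl⟩
  have := hall X X
  rw [polar_self, polar_self, two_smul, two_smul, ← two_mul, ← two_mul] at this
  exact mul_left_cancel₀ D.hf.two this

variable (hD : D.Dims)
include hD

/-- An element of the commutator subgroup. -/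
lemma sq_mem {L : Module.End F (Matrix (Fin a) (Fin b) F)} {k : OQ D.Q}
    (hk : ∀ X, k.1 (k.1 X) = L X) : ∃ m ∈ commutator (OQ D.Q), ∀ X, m.1 X = L X :=
  ⟨k * k, Forms.mul_self_mem_commutator D.bNondeg (OrthGen.notExceptional_of_two_ne_zero D.hf.two) k,
    fun X => hk X⟩

lemma left_mem_commutator {x y : Fin a → F} (hx : D.f x x = 0) (hxy : D.f x y = 0) :
    ∃ m ∈ commutator (OQ D.Q), Tens m.1 ∧ ∀ X, m.1 X = X + leftMap (sie D.f x y) X := by
  have hn : D.f x (-((2 : F)⁻¹ • y)) = 0 := by simp [hxy]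
  have hh : D.f x ((2 : F)⁻¹ • y) = 0 := by simp [hxy]
  set A := (1 : Module.End F (Fin a → F)) + sie D.f x ((2 : F)⁻¹ • y) with hA
  set A' := (1 : Module.End F (Fin a → F)) + sie D.f x (-((2 : F)⁻¹ • y)) with hA'
  have h1 : A * A' = 1 := by
    rw [hA, hA', D.hf.sie_comp hx hh hn, add_neg_cancel, Sym.sie_zero, add_zero]
  have h2 : A' * A = 1 := mul_eq_one_comm.1 h1
  have hone : leftMap (b := b) (1 : Module.End F (Fin a → F)) = 1 := LinearMap.ext fun X => by
    show LinearMap.toMatrix' (1 : Module.End F (Fin a → F)) * X = X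
    rw [Module.End.one_eq_id, LinearMap.toMatrix'_id, Matrix.one_mul]
  obtain ⟨k, hk⟩ := exists_isom (D := D) (L := leftMap A) (K := leftMap A')
    (by rw [← leftMap_mul, h1, hone]) (by rw [← leftMap_mul, h2, hone]) fun w u z q => by
      rw [leftMap_colMap, leftMap_colMap, polar_col_col, polar_col_col, hA, LinearMap.add_apply,
        LinearMap.add_apply, Module.End.one_apply, Module.End.one_apply, D.hf.sie_skew hx hh]
  have h22 : (2 : F)⁻¹ • y + (2 : F)⁻¹ • y = y := by
    rw [← add_smul, ← two_mul, mul_inv_cancel₀ D.hf.two, one_smul]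
  obtain ⟨m, hm, hmX⟩ := sq_mem hD (k := k) (L := leftMap (1 + sie D.f x y)) fun X => by
    rw [hk, hk, ← Module.End.mul_apply, ← leftMap_mul, hA, D.hf.sie_comp hx hh hh, h22]
  refine ⟨m, hm, ⟨LinearMap.toMatrix' ((1 : Module.End F (Fin a → F)) + sie D.f x y), 1, fun X => ?_⟩,
    fun X => ?_⟩
  · rw [hmX, Matrix.mul_one]; rfl
  · rw [hmX]
    show LinearMap.toMatrix' ((1 : Module.End F (Fin a → F)) + sie D.f x y) * X = _
    rw [map_add, Module.End.one_eq_id, LinearMap.toMatrix'_id, Matrix.add_mul, Matrix.one_mul]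
    rfl

omit hD [Finite F] in
lemma sieW_col {u y : Fin b → F} (w : Fin b → F) (p : Fin a → F) :
    ((1 : Module.End F (Matrix (Fin a) (Fin b) F)) + D.sieW u y) (colMap w p) =
      colMap (w + sie D.g u y w) p := by
  simp [sieW, cr_apply, row_col, sie_apply, col_add, col_sub, colMap_smul_right, D.hg.symm w u,
    D.hg.symm w y, smul_smul]

lemma right_mem_commutator {u y : Fin b → F} (hu : D.g u u = 0) (huy : D.g u y = 0) :
    ∃ m ∈ commutator (OQ D.Q), Tens m.1 ∧ ∀ X, m.1 X = X + D.sieW u y X := by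
  have hh : D.g u ((2 : F)⁻¹ • y) = 0 := by simp [huy]
  have hn : D.g u (-((2 : F)⁻¹ • y)) = 0 := by simp [huy]
  have comp : ∀ y y', D.g u y = 0 → D.g u y' = 0 →
      ((1 : Module.End F (Matrix (Fin a) (Fin b) F)) + D.sieW u y) * (1 + D.sieW u y') =
        1 + D.sieW u (y + y') := fun y y' hy hy' => LinearMap.ext fun X => ext_colMap (fun w p => by
    have := LinearMap.congr_fun (D.hg.sie_comp hu hy hy') w
    simp only [Module.End.mul_apply, LinearMap.add_apply, Module.End.one_apply] at this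
    rw [Module.End.mul_apply, sieW_col, sieW_col, sieW_col, this]) X
  have h0 : D.sieW u 0 = 0 := LinearMap.ext fun X => ext_colMap (ψ := 0) (fun w p => by
    simp [sieW, cr_apply, row_col, show colMap (0 : Fin b → F) p = (0 : Matrix (Fin a) (Fin b) F) by
      ext i j; simp [colMap_apply, vecMulVec_apply]]) X
  obtain ⟨k, hk⟩ := exists_isom (D := D) (L := 1 + D.sieW u ((2 : F)⁻¹ • y))
    (K := 1 + D.sieW u (-((2 : F)⁻¹ • y))) (by rw [comp _ _ hh hn, add_neg_cancel, h0, add_zero])
    (by rw [comp _ _ hn hh, neg_add_cancel, h0, add_zero]) fun w p z q => by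
      rw [sieW_col, sieW_col, polar_col_col, polar_col_col, D.hg.sie_skew hu hh]
  have h22 : (2 : F)⁻¹ • y + (2 : F)⁻¹ • y = y := by
    rw [← add_smul, ← two_mul, mul_inv_cancel₀ D.hf.two, one_smul]
  obtain ⟨m, hm, hmX⟩ := sq_mem hD (k := k) (L := 1 + D.sieW u y) fun X => by
    rw [hk, hk, ← Module.End.mul_apply, comp _ _ hh hh, h22]
  obtain ⟨B, hB⟩ := eq_mul_right (a := a) (by have := hD.three; omega)
    (L := 1 + D.sieW u y) fun A => LinearMap.ext fun X => ext_colMap (fun w p => by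
      rw [Module.End.mul_apply, Module.End.mul_apply, sieW_col, leftMap_colMap, leftMap_colMap,
        sieW_col]) X
  refine ⟨m, hm, ⟨1, B, fun X => by rw [hmX, hB, Matrix.one_mul]⟩, fun X => ?_⟩
  rw [hmX]; rfl

end TD

omit [Finite F] in
lemma dims_spare {f : (Fin a → F) →ₗ[F] (Fin a → F) →ₗ[F] F} (hf : Sym f)
    (h : 5 ≤ a ∨ a = 3 ∨ (a = 4 ∧ ∀ W : Submodule F (Fin a → F), finrank F W = 2 →
      ∃ p ∈ W, ∃ q ∈ W, f p q ≠ 0))
    (x x' w : Fin a → F) (hx : Hyp f x x') (h1 : f x w = 0) (h2 : f x' w = 0) (h3 : f w w = 0)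
    (hw : w ≠ 0) : ∃ e, f x e = 0 ∧ f x' e = 0 ∧ f w e = 0 ∧ f e e ≠ 0 := by
  have hind : LinearIndependent F ![x, x', w] := by
    refine Fintype.linearIndependent_iff.2 fun c hc => ?_
    simp [Fin.sum_univ_three] at hc
    have e1 := congrArg (f x) hc
    have e2 := congrArg (f x') hc
    simp [hx.1, hx.2.2, h1] at e1
    simp [hx.2.1, hf.symm x' x, hx.2.2, h2] at e2
    rw [e1, e2, zero_smul, zero_smul, zero_add, zero_add, smul_eq_zero] at hc
    intro i
    fin_cases i
    · exact e2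
    · exact e1
    · exact hc.resolve_right hw
  set S := Submodule.span F (Set.range ![x, x', w]) with hS
  have hS3 : finrank F S = 3 := by rw [hS, finrank_span_eq_card hind, Fintype.card_fin]
  rcases h with ha | ha | ⟨ha, hno⟩
  · obtain ⟨y, hy, hyp⟩ := Sym.exists_perp_avoid (g := f) ![x, x', w] (F ∙ w) (by
      rw [finrank_span_singleton hw, finrank_fin_fun]; omega)
    have hyS : y ∉ S := fun hm => by
      obtain ⟨c, hc⟩ := (Submodule.mem_span_range_iff_exists_fun F).1 hm
      simp [Fin.sum_univ_three] at hc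
      have e1 := congrArg (f x) hc
      have e2 := congrArg (f x') hc
      simp [hx.1, hx.2.2, h1, show f x y = 0 from hyp 0] at e1
      simp [hx.2.1, hf.symm x' x, hx.2.2, h2, show f x' y = 0 from hyp 1] at e2
      exact hy (Submodule.mem_span_singleton.2 ⟨c 2, by rw [← hc, e1, e2]; simp⟩)
    obtain ⟨c, hc, hcS⟩ := hf.exists_pair_sub hyS
    obtain ⟨e, he, hee⟩ := hf.aniso_of_pair
      (S := LinearMap.ker (LinearMap.pi fun i => f (![x, x', w] i))) (x := y) (y := c)
      (LinearMap.mem_ker.2 (funext fun i => hyp i))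
      (LinearMap.mem_ker.2 (funext fun i => hcS _ (Submodule.subset_span ⟨i, rfl⟩)))
      (by rw [hc]; exact one_ne_zero)
    exact ⟨e, congrFun (LinearMap.mem_ker.1 he) 0, congrFun (LinearMap.mem_ker.1 he) 1,
      congrFun (LinearMap.mem_ker.1 he) 2, hee⟩
  · exfalso
    have htop : S = ⊤ := Submodule.eq_top_of_finrank_eq (by rw [hS3, finrank_fin_fun, ha])
    refine hw (hf.nd w fun y => ?_)
    obtain ⟨c, hc⟩ := (Submodule.mem_span_range_iff_exists_fun F).1
      (show y ∈ S from htop ▸ Submodule.mem_top)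
    rw [← hc]
    simp [Fin.sum_univ_three, hf.symm w x, hf.symm w x', h1, h2, h3]
  · exfalso
    have hpair : LinearIndependent F ![x, w] := by
      refine LinearIndependent.pair_iff.2 fun s t hst => ?_
      have e1 := congrArg (f x') hst
      simp [hf.symm x' x, hx.2.2, h2] at e1
      rw [e1, zero_smul, zero_add, smul_eq_zero] at hst
      exact ⟨e1, hst.resolve_right hw⟩
    obtain ⟨p, hp, q, hq, hpq⟩ := hno (Submodule.span F (Set.range ![x, w]))
      (by rw [finrank_span_eq_card hpair, Fintype.card_fin])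
    obtain ⟨c, rfl⟩ := (Submodule.mem_span_range_iff_exists_fun F).1 hp
    obtain ⟨d, rfl⟩ := (Submodule.mem_span_range_iff_exists_fun F).1 hq
    simp [Fin.sum_univ_two, hx.1, h1, h3, hf.symm w x] at hpq

/-- The stabilisers of orthogonal tensor decompositions are maximal in `Ω`. -/
theorem orthTensor_maximal {ι : Type} [Fintype ι] [DecidableEq ι] (h2 : (2 : F) ≠ 0) (ha : 3 ≤ a)
    (hb : 5 ≤ b) (hab : a < b) (hbig : (∃ t : F, t ≠ 0 ∧ t * t ≠ 1) ∨ 4 ≤ a)
    {Q : (ι → F) → F} (hQ : IsNondegenerateQuadraticForm Q) (e : ι ≃ Fin a × Fin b) (P : GL ι F)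
    (f₁ : (Fin a → F) → (Fin a → F) → F) (f₂ : (Fin b → F) → (Fin b → F) → F)
    (hf₁ : IsSymmetricForm f₁) (hf₂ : IsSymmetricForm f₂)
    (hT : IsTensorFormStructure id (QuadraticMap.polar Q) f₁ f₂ e P)
    (hspare : 5 ≤ a ∨ a = 3 ∨ (a = 4 ∧ ∀ W : Submodule F (Fin a → F), finrank F W = 2 →
      ∃ p ∈ W, ∃ q ∈ W, f₁ p q ≠ 0)) :
    IsMaximalIn (omegaGL Q) (tensorProductSubgroup a b e P ⊓ omegaGL Q) := by
  classical
  obtain ⟨c, hc, hT⟩ := hT
  set S := toMat (a := a) (b := b) e P with hS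
  set Qf := toQF hQ with hQf
  let Qm : QuadraticForm F (Matrix (Fin a) (Fin b) F) := Qf.comp S.symm.toLinearMap
  let D : TD F a b :=
    { f := c • LinearMap.mk₂ F f₁ hf₁.bilinear.add_left hf₁.bilinear.smul_left
        hf₁.bilinear.add_right hf₁.bilinear.smul_right
      g := LinearMap.mk₂ F f₂ hf₂.bilinear.add_left hf₂.bilinear.smul_left
        hf₂.bilinear.add_right hf₂.bilinear.smul_right
      η := (gramMatrix f₂).mulVecLin
      Q := Qm
      hf :=
        { symm := fun u v => by simp [hf₁.symm u v]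
          two := h2
          nd := fun u hu => by
            by_contra h0
            obtain ⟨-, y, hy⟩ := hf₁.nondegenerate u h0
            exact hy (by simpa [hc] using hu y) }
      hg :=
        { symm := fun u v => by simp [hf₂.symm u v]
          two := h2
          nd := fun u hu => by
            by_contra h0
            obtain ⟨-, y, hy⟩ := hf₂.nondegenerate u h0
            exact hy (by simpa using hu y) }
      g_eq := fun v w => by
        show v ⬝ᵥ gramMatrix f₂ *ᵥ w = f₂ v w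
        rw [form_eq_sum hf₂.bilinear]
        simp only [dotProduct, Matrix.mulVec, Finset.mul_sum, mul_assoc]
      polar_col := fun X w u => by
        show _ = c • f₁ (X *ᵥ (gramMatrix f₂ *ᵥ w)) u
        have h1 : polar Qm X (colMap w u) = polar Q
            ((P : Matrix ι ι F) *ᵥ ((fun p : Fin a × Fin b => X p.1 p.2) ∘ e))
            ((P : Matrix ι ι F) *ᵥ ((fun p : Fin a × Fin b => u p.1 * w p.2) ∘ e)) := by
          simp only [polar, Qm, QuadraticMap.comp_apply, LinearEquiv.coe_coe, map_add]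
          rfl
        rw [h1, hT, form_eq_sum hf₁.bilinear, smul_eq_mul]
        congr 1
        simp only [formOfGram, Fintype.sum_prod_type, Matrix.kroneckerMap_apply, Matrix.mulVec,
          dotProduct, id_eq, Finset.sum_mul, Finset.mul_sum]
        refine Finset.sum_congr rfl fun i _ => ?_
        rw [Finset.sum_comm]
        refine Finset.sum_congr rfl fun k _ => Finset.sum_congr rfl fun j _ =>
          Finset.sum_congr rfl fun l _ => ?_
        ring }
  have hD : D.Dims :=
    { three := ha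
      five := hb
      big := hbig
      spare := dims_spare D.hf (hspare.imp id (Or.imp id (And.imp id fun h W hW => by
        obtain ⟨p, hp, q, hq, hpq⟩ := h W hW
        exact ⟨p, hp, q, hq, mul_ne_zero hc hpq⟩))) }
  have hab5 : 5 ≤ a * b := by nlinarith
  let Φ : OQ D.Q ≃* OQ Qf := OQCongr S.symm fun X => rfl
  let j : OQ D.Q →* GL ι F := (oqToGL Qf).comp Φ.toMonoidHom
  have hj : ∀ k, toAct e P (j k) = k.1 := fun k => LinearEquiv.ext fun X => by
    rw [toAct_apply]
    show S ((oqToGL Qf (Φ k) : Matrix ι ι F) *ᵥ S.symm X) = _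
    rw [oqToGL_mulVec]
    show S (S.symm (k.1 (S (S.symm X)))) = _
    rw [LinearEquiv.apply_symm_apply, LinearEquiv.apply_symm_apply]
  have hΩ : (commutator (OQ D.Q)).map j = omegaGL Q := by
    rw [← Subgroup.map_map, map_commutator_top_of_equiv Φ, map_oqToGL_commutator, hQf,
      GeoClasses.coe_toQF]
  have hcardι : 5 ≤ Fintype.card ι := by
    rw [Fintype.card_congr e, Fintype.card_prod, Fintype.card_fin, Fintype.card_fin]; exact hab5
  refine ⟨lt_of_le_not_ge inf_le_right fun hle => ?_, fun M hM hMΩ => ?_⟩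
  · refine OrthMax.omega_not_le_tensorProductSubgroup (Q := Qf) (bNondeg_toQF hQ) hcardι (by omega)
      (by omega) e P ?_
    rw [hQf, GeoClasses.coe_toQF]
    exact hle.trans inf_le_left
  have hmem : ∀ k : OQ D.Q, k ∈ commutator (OQ D.Q) → Tens k.1 → k ∈ M.comap j := fun k hk ht =>
    hM ⟨mem_tensor_of_tens (by omega) (by omega) e P _ (by rw [hj]; exact ht),
      by rw [← hΩ]; exact ⟨k, hk, rfl⟩⟩
  have hG : D.Good (M.comap j) := by
    refine ⟨fun x y hx hxy => ?_, fun u y hu huy => ?_⟩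
    · obtain ⟨k, hk, ht, hkX⟩ := TD.left_mem_commutator hD hx hxy
      exact ⟨k, hmem k hk ht, hkX⟩
    · obtain ⟨k, hk, ht, hkX⟩ := TD.right_mem_commutator hD hu huy
      exact ⟨k, hmem k hk ht, hkX⟩
  by_cases hno : ∀ w, D.g w w = 0 → w ≠ 0 → ¬ D.Roots (M.comap j) w
  · refine Or.inl (le_antisymm (fun m hm => ?_) hM)
    refine ⟨?_, hMΩ hm⟩
    obtain ⟨k, -, rfl⟩ : m ∈ (commutator (OQ D.Q)).map j := hΩ ▸ hMΩ hm
    exact mem_tensor_of_tens (by omega) (by omega) e P _ (by
      rw [hj]; exact TD.tens_of_mem hD hab hG hno hm)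
  · push Not at hno
    obtain ⟨w, hw, hw0, hR⟩ := hno
    refine Or.inr (le_antisymm hMΩ ?_)
    rw [← hΩ, Subgroup.map_le_iff_le_comap]
    exact TD.commutator_le hD hG fun z hz hz0 => TD.roots_all hD hG hw hw0 hR hz hz0

omit [Finite F] in
/-- Interchanging the two factors. -/
lemma tensorProductSubgroup_le_swap {ι : Type} [Fintype ι] [DecidableEq ι]
    (e : ι ≃ Fin a × Fin b) (P : GL ι F) :
    tensorProductSubgroup a b e P ≤
      tensorProductSubgroup b a (e.trans (Equiv.prodComm _ _)) P := by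
  rintro _ ⟨_, ⟨g, ⟨A, B, hg⟩, rfl⟩, rfl⟩
  refine ⟨_, ⟨glKron B A, ⟨B, A, rfl⟩, rfl⟩, congrArg (MulAut.conj P).toMonoidHom ?_⟩
  refine Units.ext ?_
  simp only [MulEquiv.coe_toMonoidHom, glReindex_apply]
  rw [hg]
  ext p q
  simp [glKron, Matrix.reindexAlgEquiv_apply, Matrix.kroneckerMap_apply, mul_comm]

omit [Finite F] in
lemma tensorProductSubgroup_swap {ι : Type} [Fintype ι] [DecidableEq ι]
    (e : ι ≃ Fin a × Fin b) (P : GL ι F) :
    tensorProductSubgroup a b e P =
      tensorProductSubgroup b a (e.trans (Equiv.prodComm _ _)) P := by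
  refine le_antisymm (tensorProductSubgroup_le_swap e P) ?_
  refine (tensorProductSubgroup_le_swap _ P).trans (le_of_eq ?_)
  congr 1

omit [Finite F] in
lemma isTensorFormStructure_swap {ι : Type} [Fintype ι] [DecidableEq ι]
    {f : (ι → F) → (ι → F) → F} {f₁ : (Fin a → F) → (Fin a → F) → F}
    {f₂ : (Fin b → F) → (Fin b → F) → F} {e : ι ≃ Fin a × Fin b} {P : GL ι F}
    (h : IsTensorFormStructure id f f₁ f₂ e P) :
    IsTensorFormStructure id f f₂ f₁ (e.trans (Equiv.prodComm _ _)) P := by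
  obtain ⟨c, hc, h⟩ := h
  refine ⟨c, hc, fun x y => ?_⟩
  refine (h (fun p => x (p.2, p.1)) (fun p => y (p.2, p.1))).trans ?_
  congr 1
  rw [formOfGram, formOfGram, ← Equiv.sum_comp (Equiv.prodComm (Fin a) (Fin b))]
  refine Finset.sum_congr rfl fun p _ => ?_
  rw [← Equiv.sum_comp (Equiv.prodComm (Fin a) (Fin b))]
  exact Finset.sum_congr rfl fun q _ => by
    simp [Matrix.kroneckerMap_apply, Prod.swap, mul_comm]

omit [Finite F] in
lemma big_of_hex [Fintype F] (hodd : Odd (Fintype.card F)) {n : ℕ} (hn : 3 ≤ n)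
    (hex : ¬ (Fintype.card F = 3 ∧ n = 3)) : (∃ t : F, t ≠ 0 ∧ t * t ≠ 1) ∨ 4 ≤ n := by
  classical
  by_cases h3 : Fintype.card F = 3
  · exact Or.inr (by omega)
  refine Or.inl ?_
  by_contra hc
  push Not at hc
  have : Fintype.card F ≤ 3 := by
    rw [← Finset.card_univ]
    refine le_trans (Finset.card_le_card (t := ({0, 1, -1} : Finset F)) fun t _ => ?_) Finset.card_le_three
    rcases eq_or_ne t 0 with rfl | ht
    · simp
    rcases mul_self_eq_one_iff.1 (hc t ht) with rfl | rfl <;> simp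
  obtain ⟨k, hk⟩ := hodd
  have := Fintype.one_lt_card (α := F)
  omega

end Cfsg.Agent.MaxSub.OrthTensor
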