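import Cfsg.Agent.MaxSub.OrthTensor.Roots
import Cfsg.Agent.MaxSub.QuadPair.Main

/-!
Without root elements at pure singular tensors, every conjugate of a long root element of the second
factor commutes with the first factor.
-/

set_option autoImplicit false
set_option linter.unusedSectionVars false

namespace Cfsg.Agent.MaxSub.OrthTensor

open Module Matrix QuadraticMap Cfsg.Agent.MaxSub.TensorMax Cfsg.Agent.Classical

variable {F : Type*} [Field F] {a b : ℕ}

namespace TD

variable (D : TD F a b)

/-- An entry of an endomorphism with respect to the second factor. -/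
def phi (L : Module.End F (Matrix (Fin a) (Fin b) F)) (x y : Fin b → F) :
    Module.End F (Fin a → F) :=
  D.row x ∘ₗ L ∘ₗ colMap y

/-- What is used of the conjugates of `nn v c`. -/
structure Long (M : Subgroup (OQ D.Q)) (L : Module.End F (Matrix (Fin a) (Fin b) F)) : Prop where
  sq : L * L = 0
  rank : finrank F (LinearMap.range L) ≤ 2 * a
  mem : ∀ t : F, D.Mem M (t • L)

variable {D} {M : Subgroup (OQ D.Q)} {L : Module.End F (Matrix (Fin a) (Fin b) F)}

lemma phi_apply (x y : Fin b → F) (u : Fin a → F) :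
    D.phi L x y u = D.row x (L (colMap y u)) := rfl

lemma phi_add_left (x x' y : Fin b → F) : D.phi L (x + x') y = D.phi L x y + D.phi L x' y :=
  LinearMap.ext fun u => by simp [phi_apply, row_add]

lemma phi_smul_left (t : F) (x y : Fin b → F) : D.phi L (t • x) y = t • D.phi L x y :=
  LinearMap.ext fun u => by simp [phi_apply, row_smul]

lemma phi_add_right (x y y' : Fin b → F) : D.phi L x (y + y') = D.phi L x y + D.phi L x y' :=
  LinearMap.ext fun u => by simp [phi_apply, col_add]

lemma phi_smul_right (t : F) (x y : Fin b → F) : D.phi L x (t • y) = t • D.phi L x y :=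
  LinearMap.ext fun u => by simp [phi_apply, colMap_smul_right]

variable (D) in
/-- `phi` as a bilinear map. -/
def phiB (L : Module.End F (Matrix (Fin a) (Fin b) F)) :
    (Fin b → F) →ₗ[F] (Fin b → F) →ₗ[F] Module.End F (Fin a → F) :=
  LinearMap.mk₂ F (D.phi L) phi_add_left phi_smul_left phi_add_right phi_smul_right

lemma nn_apply (v c : Fin b → F) (X : Matrix (Fin a) (Fin b) F) :
    D.nn v c X = colMap v (D.row c X) - colMap c (D.row v X) := by
  simp [nn, cr_apply]

lemma nn_sq {v c : Fin b → F} (hp : Pair₂ D.g v c) : D.nn v c * D.nn v c = 0 :=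
  LinearMap.ext fun X => by
    simp [nn_apply, row_col, hp.2.2.1, hp.2.2.2.1, hp.2.2.2.2, D.hg.perp_symm hp.2.2.2.2]

lemma nn_mem (hM : D.Good M) {v c : Fin b → F} (hp : Pair₂ D.g v c) (t : F) :
    D.Mem M (t • D.nn v c) := by
  refine (hM.right c (t • v) hp.2.2.2.1 (by simp [D.hg.perp_symm hp.2.2.2.2])).congr ?_
  simp only [sieW, nn, cr_smul_left, cr_smul_right, map_smul, LinearMap.smul_apply, hp.2.2.1,
    smul_eq_mul, mul_zero, zero_div, zero_smul, sub_zero, smul_sub]

variable [Finite F]

lemma finrank_range_nn {v c : Fin b → F} (hp : Pair₂ D.g v c) :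
    finrank F (LinearMap.range (D.nn v c)) = 2 * a := by
  obtain ⟨v', c', hv, hc, h3, h2, h4⟩ := D.hg.exists_companions hp
  have e1 : D.g v' v = 1 := by rw [D.hg.symm, hv.2.2]
  have e2 : D.g c' c = 1 := by rw [D.hg.symm, hc.2.2]
  let φ : (Fin a → F) × (Fin a → F) →ₗ[F] Matrix (Fin a) (Fin b) F :=
    (colMap v).coprod (colMap c)
  have hr : LinearMap.range (D.nn v c) = LinearMap.range φ := by
    refine le_antisymm ?_ ?_
    · rintro _ ⟨X, rfl⟩
      exact ⟨(D.row c X, -D.row v X), by simp [φ, nn_apply, sub_eq_add_neg]⟩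
    · rintro _ ⟨⟨p, q⟩, rfl⟩
      exact ⟨colMap c' p - colMap v' q, by
        simp [φ, nn_apply, row_col, e1, e2, D.hg.perp_symm h2, h3, sub_eq_add_neg]⟩
  have hinj : Function.Injective φ := by
    rw [← LinearMap.ker_eq_bot, LinearMap.ker_eq_bot']
    rintro ⟨p, q⟩ h
    have h5 := congrArg (D.row v') h
    have h6 := congrArg (D.row c') h
    simp [φ, row_col, hv.2.2, D.hg.perp_symm h3] at h5
    simp [φ, row_col, hc.2.2, h2] at h6
    rw [h5, h6]; rfl
  rw [hr, LinearMap.finrank_range_of_inj hinj, Module.finrank_prod, finrank_fin_fun, two_mul]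

variable (hD : D.Dims) (hM : D.Good M) (hno : ∀ w, D.g w w = 0 → w ≠ 0 → ¬ D.Roots M w)
  (hL : D.Long M L)
include hD hM hno hL

/-- The pairing lemma in coordinates. -/
lemma phi_pair {v c : Fin b → F} (hp : Pair₂ D.g v c) :
    D.phi L v v = 0 ∧ ∃ s : F, D.phi L c v = s • 1 := by
  have hP : QuadPair.Pair (M.map D.toEnd) (D.nn v c) L :=
    ⟨nn_sq hp, hL.sq, hL.rank.trans (finrank_range_nn hp).ge,
      fun t => memG_iff.2 (nn_mem hM hp t), fun t => memG_iff.2 (hL.mem t)⟩
  obtain ⟨s, hs⟩ := QuadPair.pairing_scalar D.hg.two hP (tame hD hM hno hp)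
  obtain ⟨v', c', hv, hc, h3, h2, h4⟩ := D.hg.exists_companions hp
  have e2 : D.g c' c = 1 := by rw [D.hg.symm, hc.2.2]
  have key : ∀ u, colMap v (D.phi L c v u) - colMap c (D.phi L v v u) = s • colMap v u := fun u => by
    have hN : D.nn v c (colMap c' u) = colMap v u := by
      simp [nn_apply, row_col, e2, D.hg.perp_symm h2]
    have := LinearMap.congr_fun hs (colMap c' u)
    simp only [Module.End.mul_apply, LinearMap.smul_apply, hN] at this
    rw [nn_apply] at this
    exact this
  refine ⟨LinearMap.ext fun u => ?_, s, LinearMap.ext fun u => ?_⟩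
  · have := congrArg (D.row c') (key u)
    simpa [row_col, hc.2.2, h2] using this
  · have := congrArg (D.row v') (key u)
    simpa [row_col, hv.2.2, D.hg.perp_symm h3] using this

omit hD hM hno in
lemma skew (x y : Fin b → F) (u u' : Fin a → F) :
    D.f (D.phi L x y u') u + D.f (D.phi L y x u) u' = 0 := by
  have h1 := polar_map (hL.mem 1) (colMap x u) (colMap y u')
  have h2 := polar_map (hL.mem (-1)) (colMap x u) (colMap y u')
  simp only [LinearMap.smul_apply, one_smul, neg_smul, polar_add_left, polar_add_right,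
    polar_neg_left, polar_neg_right] at h1 h2
  have e : polar D.Q (L (colMap x u)) (colMap y u') = D.f (D.phi L y x u) u' := by
    rw [D.polar_col]; rfl
  have e' : polar D.Q (colMap x u) (L (colMap y u')) = D.f (D.phi L x y u') u := by
    rw [polar_col_left]; rfl
  rw [← e, ← e']
  have : (2 : F) * (polar D.Q (colMap x u) (L (colMap y u')) +
      polar D.Q (L (colMap x u)) (colMap y u')) = 0 := by
    linear_combination h1 - h2
  exact (mul_eq_zero.1 this).resolve_left D.hg.two

omit hM hno hL in
/-- A symmetric map killing all orthogonal singular pairs is a multiple of the form. -/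
lemma symm_eq_smul {X : Type*} [AddCommGroup X] [Module F X]
    (S : (Fin b → F) →ₗ[F] (Fin b → F) →ₗ[F] X) (hsymm : ∀ x y, S x y = S y x)
    (h0 : ∀ v w, D.g v v = 0 → D.g w w = 0 → D.g v w = 0 → S v w = 0) :
    ∃ C : X, ∀ x y, S x y = D.g x y • C := by
  have hb : 5 ≤ finrank F (Fin b → F) := by rw [finrank_fin_fun]; exact hD.five
  obtain ⟨v, v', hv⟩ := D.hg.exists_hyp_any hb
  obtain ⟨c, c', hp, hc, h1, h2, h3⟩ := D.hg.exists_second hb hv
  let W : Submodule F (Fin b → F) := LinearMap.ker (D.g v) ⊓ LinearMap.ker (D.g v')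
  have hW : ∀ p, D.g p p = 0 → D.g v p = 0 → D.g v' p = 0 → p ∈ ({v, v'} : Set (Fin b → F)) ∨
      (S v p = 0 ∧ S v' p = 0) := fun p hpp e e' =>
    Or.inr ⟨h0 _ _ hv.1 hpp e, h0 _ _ hv.2.1 hpp e'⟩
  have hperp : ∀ y ∈ W, S v y = 0 ∧ S v' y = 0 := fun y hy =>
    ⟨LinearMap.mem_ker.1 (D.hg.le_of_iso hc (S := W) (T := LinearMap.ker (S v))
        ⟨LinearMap.mem_ker.2 hp.2.2.2.2, LinearMap.mem_ker.2 h2⟩
        ⟨LinearMap.mem_ker.2 h1, LinearMap.mem_ker.2 h3⟩
        (fun w hw hww => LinearMap.mem_ker.2 (h0 _ _ hv.1 hww (LinearMap.mem_ker.1 hw.1))) hy),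
      LinearMap.mem_ker.1 (D.hg.le_of_iso hc (S := W) (T := LinearMap.ker (S v'))
        ⟨LinearMap.mem_ker.2 hp.2.2.2.2, LinearMap.mem_ker.2 h2⟩
        ⟨LinearMap.mem_ker.2 h1, LinearMap.mem_ker.2 h3⟩
        (fun w hw hww => LinearMap.mem_ker.2 (h0 _ _ hv.2.1 hww (LinearMap.mem_ker.1 hw.2))) hy)⟩
  have e1 : D.g v' v = 1 := by rw [D.hg.symm, hv.2.2]
  refine ⟨S v v', ?_⟩
  have hdiag : ∀ x, S x x = D.g x x • S v v' := by
    intro x
    set y := x - D.g v' x • v - D.g v x • v' with hy
    have y1 : D.g v y = 0 := by simp [hy, hv.1, hv.2.2]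
    have y2 : D.g v' y = 0 := by simp [hy, hv.2.1, e1]
    obtain ⟨s1, s2⟩ := hperp y ⟨LinearMap.mem_ker.2 y1, LinearMap.mem_ker.2 y2⟩
    have svv := h0 v v hv.1 hv.1 hv.1
    have svv' := h0 v' v' hv.2.1 hv.2.1 hv.2.1
    set w := v' + y - (D.g y y / 2) • v with hw
    have hww : D.g w w = 0 := by
      simp [hw, hv.1, hv.2.1, hv.2.2, e1, y1, y2, D.hg.perp_symm y1, D.hg.perp_symm y2]
      field_simp [D.hg.two]
      ring
    have hsy : S y y = D.g y y • S v v' := by
      have := h0 w w hww hww hww
      simp [hw, svv, svv', s1, s2, hsymm y v, hsymm y v', hsymm v' v] at this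
      have h2' := D.hg.two
      linear_combination (norm := skip) this
      match_scalars <;> field_simp <;> ring
    rw [show x = y + D.g v' x • v + D.g v x • v' by rw [hy]; abel]
    simp [svv, svv', s1, s2, hsymm y v, hsymm y v', hsymm v' v, hsy, hv.1, hv.2.1, hv.2.2, e1, y1,
      y2, D.hg.perp_symm y1, D.hg.perp_symm y2, add_smul, smul_smul]
    try module
  intro x y
  have h := hdiag (x + y)
  simp only [map_add, LinearMap.add_apply, hdiag x, hdiag y, hsymm y x, D.hg.symm y x] at h
  have : (2 : F) • (S x y - D.g x y • S v v') = 0 := by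
    linear_combination (norm := module) h
  exact sub_eq_zero.1 ((smul_eq_zero.1 this).resolve_left D.hg.two)

/-- The shape of the entries. -/
lemma phi_shape : ∃ Γ : Module.End F (Fin a → F), (∀ u u', D.f (Γ u) u' = -D.f u (Γ u')) ∧
    ∀ x y, ∃ t : F, D.phi L x y = D.g x y • Γ + t • 1 ∧ (x = y → t = 0) := by
  have hb : 5 ≤ finrank F (Fin b → F) := by rw [finrank_fin_fun]; exact hD.five
  have ha : 3 ≤ finrank F (Fin a → F) := by rw [finrank_fin_fun]; exact hD.three
  have h00 : ∀ v, D.g v v = 0 → D.phi L v v = 0 := fun v hv => by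
    rcases eq_or_ne v 0 with rfl | hv0
    · exact LinearMap.ext fun u => by
        simp [phi_apply, show colMap (0 : Fin b → F) u = (0 : Matrix (Fin a) (Fin b) F) by
          ext i j; simp [colMap_apply, vecMulVec_apply]]
    · obtain ⟨c, hc⟩ := D.hg.exists_pair₂ hb hv hv0
      exact (phi_pair hD hM hno hL hc).1
  have hsc : ∀ v w, D.g v v = 0 → D.g w w = 0 → D.g v w = 0 →
      ∃ s : F, D.phi L v w = s • 1 ∧ D.phi L w v = (-s) • 1 := by
    intro v w hv hw hvw
    rcases eq_or_ne v 0 with rfl | hv0
    · refine ⟨0, ?_, ?_⟩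
      · rw [show (0 : Fin b → F) = (0 : F) • 0 by simp, phi_smul_left, zero_smul, zero_smul]
      · rw [show (0 : Fin b → F) = (0 : F) • 0 by simp, phi_smul_right, zero_smul, neg_zero, zero_smul]
    by_cases hwv : w ∈ F ∙ v
    · obtain ⟨t, rfl⟩ := Submodule.mem_span_singleton.1 hwv
      exact ⟨0, by rw [phi_smul_right, h00 v hv, smul_zero, zero_smul],
        by rw [phi_smul_left, h00 v hv, smul_zero, neg_zero, zero_smul]⟩
    have hp : Pair₂ D.g v w := ⟨hv0, hwv, hv, hw, hvw⟩
    obtain ⟨s', hs'⟩ := (phi_pair hD hM hno hL hp).2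
    refine ⟨-s', ?_, by rw [neg_neg, hs']⟩
    refine LinearMap.ext fun u' => sub_eq_zero.1 (D.hf.nd _ fun u => ?_)
    have := skew hL v w u u'
    rw [hs'] at this
    simp [D.hf.symm u u'] at this ⊢
    linear_combination this
  obtain ⟨C, hC⟩ := symm_eq_smul hD (D.phiB L + (D.phiB L).flip)
    (fun x y => by simp [phiB, add_comm]) (fun v w hv hw hvw => by
      obtain ⟨s, e, e'⟩ := hsc v w hv hw hvw
      simp [phiB, e, e', ← add_smul])
  set Γ := (2 : F)⁻¹ • C with hΓ
  let A : (Fin b → F) →ₗ[F] (Fin b → F) →ₗ[F] Module.End F (Fin a → F) :=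
    D.phiB L + (-1 : F) • LinearMap.mk₂ F (fun x y => D.g x y • Γ) (fun x x' y => by simp [add_smul])
      (fun t x y => by simp [smul_smul]) (fun x y y' => by simp [add_smul])
      (fun t x y => by simp [smul_smul])
  have hA : ∀ x y, A x y = D.phi L x y - D.g x y • Γ := fun x y => by
    simp [A, phiB, sub_eq_add_neg]
  have halt : ∀ x y, A x y + A y x = 0 := fun x y => by
    have h := hC x y
    simp only [LinearMap.add_apply, LinearMap.flip_apply] at h
    simp only [hA, D.hg.symm y x, hΓ]
    rw [show D.phiB L x y = D.phi L x y from rfl, show D.phiB L y x = D.phi L y x from rfl] at h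
    linear_combination (norm := skip) h
    have := D.hg.two
    match_scalars <;> field_simp <;> ring
  let Z : Submodule F (Module.End F (Fin a → F)) := Submodule.span F {1}
  have hAo : ∀ v w, D.g v v = 0 → D.g w w = 0 → D.g v w = 0 → A v w ∈ Z := fun v w hv hw hvw => by
    obtain ⟨s, e, -⟩ := hsc v w hv hw hvw
    rw [hA, e, hvw, zero_smul, sub_zero]
    exact Z.smul_mem _ (Submodule.mem_span_singleton_self _)
  have hAh : ∀ v v', Hyp D.g v v' → A v v' ∈ Z := by
    intro v v' hv
    obtain ⟨c, c', hp, hc, h1, h2, h3⟩ := D.hg.exists_second hb hv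
    have e1 : D.g v' v = 1 := by rw [D.hg.symm, hv.2.2]
    have e2 : D.g c' c = 1 := by rw [D.hg.symm, hc.2.2]
    have s : ∀ {x y}, D.g x y = 0 → D.g y x = 0 := fun h => D.hg.perp_symm h
    have k1 := hAo (v + c) (v' - c') (by simp [hv.1, hc.1, hp.2.2.2.2, s hp.2.2.2.2])
      (by simp [hv.2.1, hc.2.1, h3, s h3]) (by simp [hv.2.2, hc.2.2, h1, s h2])
    have k2 := hAo (v + c') (v' - c) (by simp [hv.1, hc.2.1, h1, s h1])
      (by simp [hv.2.1, hc.1, h2, s h2]) (by simp [hv.2.2, e2, hp.2.2.2.2, s h3])
    have k : (2 : F) • A v v' ∈ Z := by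
      have := add_mem (add_mem k1 k2) (sub_mem
        (add_mem (hAo v c' hv.1 hc.2.1 h1) (hAo v c hv.1 hc.1 hp.2.2.2.2))
        (add_mem (hAo c v' hc.1 hv.2.1 (s h2)) (hAo c' v' hc.2.1 hv.2.1 (s h3))))
      convert this using 1
      have := eq_neg_of_add_eq_zero_left (halt c' c)
      simp [this, two_smul]
      abel
    exact (Submodule.smul_mem_iff Z D.hg.two).1 k
  have hAs : ∀ v w, D.g v v = 0 → D.g w w = 0 → A v w ∈ Z := fun v w hv hw => by
    by_cases h : D.g v w = 0
    · exact hAo v w hv hw h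
    · have := hAh v ((D.g v w)⁻¹ • w) ⟨hv, by simp [hw], by simp [inv_mul_cancel₀ h]⟩
      rwa [map_smul, Submodule.smul_mem_iff Z (inv_ne_zero h)] at this
  obtain ⟨v, v', hv⟩ := D.hg.exists_hyp_any hb
  have hAall : ∀ x y, A x y ∈ Z := by
    intro x y
    have step : ∀ w, D.g w w = 0 → A w y ∈ Z := fun w hw =>
      (D.hg.le_of_iso hv (S := ⊤) (T := Submodule.comap (A w) Z) trivial trivial
        (fun p _ hp => hAs w p hw hp)) (Submodule.mem_top : y ∈ ⊤)
    exact (D.hg.le_of_iso hv (S := ⊤) (T := Submodule.comap (A.flip y) Z) trivial trivial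
      (fun p _ hp => step p hp)) (Submodule.mem_top : x ∈ ⊤)
  obtain ⟨z, hzz⟩ : ∃ z, D.g z z ≠ 0 := by
    obtain ⟨z, -, hzz⟩ := D.hg.aniso_of_pair (S := (⊤ : Submodule F (Fin b → F))) (x := v)
      (y := v') trivial trivial (by rw [hv.2.2]; exact one_ne_zero)
    exact ⟨z, hzz⟩
  have hdiag : ∀ x, D.phi L x x = D.g x x • Γ := fun x => by
    have := halt x x
    rw [← two_smul F, smul_eq_zero] at this
    exact sub_eq_zero.1 ((hA x x).symm.trans (this.resolve_left D.hg.two))
  refine ⟨Γ, fun u u' => ?_, fun x y => ?_⟩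
  · have := skew hL z z u' u
    rw [hdiag] at this
    simp only [LinearMap.smul_apply, map_smul, smul_eq_mul, D.hf.symm (Γ u') u] at this
    rw [← mul_add, mul_eq_zero] at this
    exact eq_neg_of_add_eq_zero_left (this.resolve_left hzz)
  · obtain ⟨t, ht⟩ := Submodule.mem_span_singleton.1 (hAall x y)
    refine ⟨t, by rw [ht, hA, add_sub_cancel], fun e => ?_⟩
    subst e
    rw [hA, hdiag, sub_self] at ht
    obtain ⟨u, -, hu0, -⟩ := D.hf.exists_iso (S := (⊤ : Submodule F (Fin a → F)))
      (by rw [finrank_top]; exact ha)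
    exact (smul_eq_zero.1 ht).resolve_right fun h0 => hu0 (LinearMap.congr_fun h0 u)

/-- A long element commutes with the first factor. -/
theorem long_commute (hab : a < b) (A : Module.End F (Fin a → F)) :
    leftMap A * L = L * leftMap A := by
  classical
  have ha : 3 ≤ finrank F (Fin a → F) := by rw [finrank_fin_fun]; exact hD.three
  have hb : 5 ≤ finrank F (Fin b → F) := by rw [finrank_fin_fun]; exact hD.five
  obtain ⟨Γ, hskew, hsh⟩ := phi_shape hD hM hno hL
  obtain ⟨x₀, x₀', hx₀⟩ := D.hf.exists_iso (S := (⊤ : Submodule F (Fin a → F)))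
    (by rw [finrank_top]; exact ha) |>.elim fun x h =>
      (D.hf.exists_hyp h.2.2 h.2.1).elim fun x' h' => (⟨x, x', h'⟩ : ∃ x x', Hyp D.f x x')
  have hΓ : Γ = 0 := by
    by_contra hΓ0
    have horth : ∀ x y, D.g x y = 0 → D.phi L x y = 0 := by
      intro x y hxy
      obtain ⟨t, ht, -⟩ := hsh x y
      rw [hxy, zero_smul, zero_add] at ht
      rw [ht]
      by_contra hne
      have ht0 : t ≠ 0 := fun h0 => hne (by rw [h0, zero_smul])
      have hcol : ∀ w u, ∃ p, L (colMap w u) = leftMap Γ (colMap w u) + colMap p u := fun w u => by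
        choose τ hτ using fun x => hsh x w
        obtain ⟨φ, hφ⟩ : ∃ φ : (Fin b → F) →ₗ[F] F, ∀ x, φ x = τ x := by
          obtain ⟨e, -, hee⟩ := D.hf.aniso_of_pair (S := (⊤ : Submodule F (Fin a → F)))
            (x := x₀) (y := x₀') trivial trivial (by rw [hx₀.2.2]; exact one_ne_zero)
          refine ⟨{ toFun := fun x => D.f ((D.phi L x w - D.g x w • Γ) e) e / D.f e e
                    map_add' := fun x x' => by simp [phi_add_left, add_smul]; ring
                    map_smul' := fun r x => by simp [phi_smul_left]; ring }, fun x => ?_⟩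
          show D.f ((D.phi L x w - D.g x w • Γ) e) e / D.f e e = _
          rw [(hτ x).1, add_sub_cancel_left]
          simp [mul_div_cancel_right₀ _ hee]
        obtain ⟨p, hp⟩ := D.hg.exists_dual φ
        refine ⟨p, ext_row (D := D) fun x => ?_⟩
        rw [map_add, leftMap_colMap, row_col, row_col, hp, hφ, ← phi_apply, (hτ x).1, D.hg.symm w x]
        simp
      obtain ⟨u, hu⟩ : ∃ u, Γ u ∉ F ∙ u := by
        by_contra hc
        push Not at hc
        obtain ⟨κ, hκ⟩ := eq_smul_id Γ fun u => by
          obtain ⟨κ, hκ⟩ := Submodule.mem_span_singleton.1 (hc u); exact ⟨κ, hκ.symm⟩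
        have := hskew x₀ x₀'
        rw [hκ] at this
        simp [hx₀.2.2] at this
        rw [eq_neg_iff_add_eq_zero, ← two_mul, mul_eq_zero] at this
        exact hΓ0 (by rw [hκ, this.resolve_left D.hf.two, zero_smul])
      obtain ⟨p, hp⟩ := hcol y u
      obtain ⟨p', hp'⟩ := hcol y (Γ u)
      obtain ⟨q, hq⟩ := hcol p u
      have hu0 : u ≠ 0 := fun h => hu (by rw [h, map_zero]; exact zero_mem _)
      have hgp : D.g p x = t := by
        have := congrArg (D.row x) hp
        rw [← phi_apply, ht, map_add, leftMap_colMap, row_col, row_col, D.hg.symm y x, hxy,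
          zero_smul, zero_add, LinearMap.smul_apply, Module.End.one_apply] at this
        exact (smul_left_injective F hu0 this).symm
      have hgp' : D.g p' x = t := by
        have := congrArg (D.row x) hp'
        rw [← phi_apply, ht, map_add, leftMap_colMap, row_col, row_col, D.hg.symm y x, hxy,
          zero_smul, zero_add, LinearMap.smul_apply, Module.End.one_apply] at this
        exact (smul_left_injective F (fun h => hu (by rw [h]; exact zero_mem _)) this).symm
      have h2 := LinearMap.congr_fun hL.sq (colMap y u)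
      rw [Module.End.mul_apply, hp, map_add, leftMap_colMap, hp', hq] at h2
      have h3 := congrArg (D.row x) h2
      simp only [map_add, leftMap_colMap, row_col, LinearMap.zero_apply, map_zero, hgp, hgp',
        D.hg.symm y x, hxy, zero_smul, zero_add] at h3
      refine hu (Submodule.mem_span_singleton.2 ⟨-(D.g q x) / (t + t), ?_⟩)
      have htt : t + t ≠ 0 := by rw [← two_mul]; exact mul_ne_zero D.hf.two ht0
      rw [← smul_right_inj htt, smul_smul, mul_div_cancel₀ _ htt]
      linear_combination (norm := module) -h3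
    -- all entries are multiples of the form
    have haniso : ∀ x y, D.g x x ≠ 0 → D.phi L x y = D.g x y • Γ := by
      intro x y hx
      have := horth x (y - (D.g x y / D.g x x) • x) (by simp [div_mul_cancel₀ _ hx])
      obtain ⟨t, ht, ht0⟩ := hsh x x
      rw [ht0 rfl, zero_smul, add_zero] at ht
      rw [sub_eq_add_neg, ← neg_smul, phi_add_right, phi_smul_right, ht, smul_smul, neg_mul,
        div_mul_cancel₀ _ hx, neg_smul, ← sub_eq_add_neg, sub_eq_zero] at this
      exact this
    have hLG : L = leftMap Γ := ext_entries fun x y u => by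
      rw [leftMap_colMap, row_col, ← phi_apply, D.hg.symm y x]
      rcases eq_or_ne (D.g x x) 0 with hxx | hxx
      swap
      · rw [haniso x y hxx]; rfl
      obtain ⟨v, v', hv⟩ := D.hg.exists_hyp_any hb
      rcases eq_or_ne x 0 with rfl | hx0
      · simp [phi_apply, row, rowMap_apply]
      obtain ⟨c, hc, hcp⟩ := D.hg.exists_hyp hxx hx0 |>.elim fun x' hx' =>
        (D.hg.exists_second hb hx').elim fun c h => h.elim fun c' h =>
          (⟨c + c', by
            simp [h.2.1.1, h.2.1.2.1, h.2.1.2.2, D.hg.symm c' c, ← two_mul, D.hg.two],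
            by simp [h.1.2.2.2.2, h.2.2.1]⟩ : ∃ z, D.g z z ≠ 0 ∧ D.g x z = 0)
      have h5 := haniso (x + c) y (by simp [hxx, hcp, D.hg.perp_symm hcp, hc])
      rw [phi_add_left, haniso c y hc, map_add, LinearMap.add_apply, add_smul, add_left_inj] at h5
      rw [h5]; rfl
    obtain ⟨p, q, hpq⟩ : ∃ p q : Fin a → F, Function.Injective
        ((LinearMap.coprod (LinearMap.toSpanSingleton F _ (Γ p))
          (LinearMap.toSpanSingleton F _ (Γ q))) : F × F → (Fin a → F)) := by
      obtain ⟨p, hp⟩ : ∃ p, Γ p ≠ 0 := by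
        by_contra hc
        push Not at hc
        exact hΓ0 (LinearMap.ext hc)
      obtain ⟨q, hq⟩ : ∃ q, Γ q ∉ F ∙ Γ p := by
        by_contra hc
        push Not at hc
        choose φ hφ using fun q => Submodule.mem_span_singleton.1 (hc q)
        have hw : ∀ u u', φ u * D.f (Γ p) u' = -(φ u' * D.f (Γ p) u) := fun u u' => by
          have := hskew u u'
          rw [← hφ u, ← hφ u', D.hf.symm u] at this
          simpa using this
        obtain ⟨w, hw1, -⟩ := D.hf.exists_pair_sub (S := ⊥) (y := Γ p) (by simpa using hp)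
        have h1 := hw w w
        rw [hw1, mul_one, eq_neg_iff_add_eq_zero, ← two_mul, mul_eq_zero] at h1
        have h2 := hw p w
        rw [hw1, h1.resolve_left D.hf.two, zero_mul, neg_zero, mul_one] at h2
        exact hp (by rw [← hφ p, h2, zero_smul])
      refine ⟨p, q, ?_⟩
      rw [← LinearMap.ker_eq_bot, LinearMap.ker_eq_bot']
      rintro ⟨r, s⟩ h
      simp at h
      have hs : s = 0 := by
        by_contra hs
        exact hq (Submodule.mem_span_singleton.2 ⟨-(s⁻¹ * r), by
          rw [eq_neg_of_add_eq_zero_right h |> fun e => (eq_inv_smul_iff₀ hs).2 e]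
          module⟩)
      subst hs
      simp [hp] at h
      rw [h]; rfl
    let ψ : (Fin b → F) × (Fin b → F) →ₗ[F] LinearMap.range L :=
      LinearMap.codRestrict _
        { toFun := fun w => vecMulVec (Γ p) w.1 + vecMulVec (Γ q) w.2
          map_add' := fun w w' => by
            simp only [Prod.fst_add, Prod.snd_add, vecMulVec_add]; abel
          map_smul' := fun r w => by
            simp only [Prod.smul_fst, Prod.smul_snd, vecMulVec_smul, RingHom.id_apply, smul_add] }
        fun w => ⟨colMap w.1 p + colMap w.2 q, by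
          rw [hLG, map_add, leftMap_colMap, leftMap_colMap]; rfl⟩
    have hψ : Function.Injective ψ := fun w w' h => by
      have hj : ∀ j, (w.1 j, w.2 j) = (w'.1 j, w'.2 j) := fun j => hpq (funext fun i => by
        have := congrFun (congrFun (congrArg Subtype.val h) i) j
        change Γ p i * w.1 j + Γ q i * w.2 j = Γ p i * w'.1 j + Γ q i * w'.2 j at this
        simp
        linear_combination this)
      exact Prod.ext (funext fun j => congrArg Prod.fst (hj j))
        (funext fun j => congrArg Prod.snd (hj j))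
    have := LinearMap.finrank_le_finrank_of_injective hψ
    rw [Module.finrank_prod, finrank_fin_fun] at this
    have := hL.rank
    omega
  refine ext_entries (D := D) fun x y u => ?_
  obtain ⟨t, ht, -⟩ := hsh x y
  rw [hΓ, smul_zero, zero_add] at ht
  rw [Module.End.mul_apply, Module.End.mul_apply, row_leftMap, leftMap_colMap, ← phi_apply,
    ← phi_apply, ht]
  simp

end TD

end Cfsg.Agent.MaxSub.OrthTensor
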