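import Cfsg.Agent.MaxSub.OrthTensor.Basic
import Cfsg.Agent.MaxSub.OrthTensor.Endo
import Cfsg.Agent.MaxSub.QuadPair.Basic

/-!
A member near a long root element of the second factor which is not one of its multiples gives all
root elements at pure singular tensors.
-/

set_option autoImplicit false
set_option linter.unusedSectionVars false

namespace Cfsg.Agent.MaxSub.OrthTensor

open Module Matrix QuadraticMap Cfsg.Agent.MaxSub.TensorMax Cfsg.Agent.Classical

variable {F : Type*} [Field F] {a b : ℕ}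

namespace TD

variable (D : TD F a b)

lemma endU_neg (A B C : Module.End F (Fin a → F)) : A * (-B * C) = -(A * (B * C)) :=
  LinearMap.ext fun u => by simp

/-- All root elements at `v`. -/
def Roots (M : Subgroup (OQ D.Q)) (v : Fin b → F) : Prop :=
  ∀ u u', D.Mem M (D.cr v v (wed D.f u u'))

/-- What is needed of the two dimensions and of the first form. -/
structure Dims (D : TD F a b) : Prop where
  three : 3 ≤ a
  five : 5 ≤ b
  big : (∃ t : F, t ≠ 0 ∧ t * t ≠ 1) ∨ 4 ≤ a
  spare : ∀ x x' w, Hyp D.f x x' → D.f x w = 0 → D.f x' w = 0 → D.f w w = 0 → w ≠ 0 →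
    ∃ e, D.f x e = 0 ∧ D.f x' e = 0 ∧ D.f w e = 0 ∧ D.f e e ≠ 0

/-- The endomorphism of an isometry. -/
noncomputable def toEnd : OQ D.Q →* (Module.End F (Matrix (Fin a) (Fin b) F))ˣ :=
  (LinearMap.GeneralLinearGroup.generalLinearEquiv F (Matrix (Fin a) (Fin b) F)).symm.toMonoidHom.comp
    (OQ D.Q).subtype

variable {D} {M : Subgroup (OQ D.Q)}

lemma toEnd_apply (m : OQ D.Q) (X : Matrix (Fin a) (Fin b) F) :
    (D.toEnd m : Module.End F (Matrix (Fin a) (Fin b) F)) X = m.1 X := rfl

lemma memG_iff {L : Module.End F (Matrix (Fin a) (Fin b) F)} :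
    QuadPair.MemG (M.map D.toEnd) L ↔ D.Mem M L := by
  constructor
  · rintro ⟨_, ⟨m, hm, rfl⟩, hmL⟩
    exact ⟨m, hm, fun X => by rw [← toEnd_apply, hmL]; rfl⟩
  · rintro ⟨m, hm, hmL⟩
    exact ⟨_, ⟨m, hm, rfl⟩, LinearMap.ext fun X => by rw [toEnd_apply, hmL]; rfl⟩

variable (hD : D.Dims) (hM : D.Good M)

lemma quad_mul_quad {v c : Fin b → F} (h : Pair₂ D.g v c)
    (P E E' R P₁ E₁ E₁' R₁ : Module.End F (Fin a → F)) :
    D.quad v c P E E' R * D.quad v c P₁ E₁ E₁' R₁ = 0 := by
  obtain ⟨-, -, h1, h2, h3⟩ := h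
  simp [quad, mul_add, add_mul, cr_mul_cr, h1, h2, h3, D.hg.perp_symm h3]

lemma quad_rel {v v' c c' : Fin b → F} (hv : Hyp D.g v v') (hc : Hyp D.g c c')
    (h1 : D.g v c = 0) (h2 : D.g v c' = 0) (h3 : D.g v' c = 0) (h4 : D.g v' c' = 0)
    {P E E' R : Module.End F (Fin a → F)} (h : D.Mem M (D.quad v c P E E' R)) :
    (∀ u u', D.f (P u) u' = -D.f u (P u')) ∧ (∀ u u', D.f (R u) u' = -D.f u (R u')) ∧
      ∀ u u', D.f (E' u) u' = -D.f u (E u') := by
  have s : ∀ {x y}, D.g x y = 0 → D.g y x = 0 := fun h => D.hg.perp_symm h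
  have hv' : D.g v' v = 1 := by rw [D.hg.symm, hv.2.2]
  have hc' : D.g c' c = 1 := by rw [D.hg.symm, hc.2.2]
  refine ⟨fun u u' => ?_, fun u u' => ?_, fun u u' => ?_⟩
  · have := polar_map h (colMap v' u) (colMap v' u')
    simp [quad, cr_apply, row_col, polar_add_left, polar_add_right, polar_col_col, hv.1, hv.2.1,
      hv.2.2, hv', hc.1, h1, s h1, h3, s h3] at this
    linear_combination this
  · have := polar_map h (colMap c' u) (colMap c' u')
    simp [quad, cr_apply, row_col, polar_add_left, polar_add_right, polar_col_col, hc.1, hc.2.1,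
      hc.2.2, hc', hv.1, h1, s h1, h2, s h2] at this
    linear_combination this
  · have := polar_map h (colMap v' u) (colMap c' u')
    simp [quad, cr_apply, row_col, polar_add_left, polar_add_right, polar_col_col, hc.1, hc.2.1,
      hc.2.2, hc', hv.1, hv.2.1, hv.2.2, hv', h1, s h1, h2, s h2, h3, s h3, h4, s h4] at this
    linear_combination this

include hM

lemma quad_moved {u y : Fin b → F} (hu : D.g u u = 0) (huy : D.g u y = 0) {v c : Fin b → F}
    {P E E' R : Module.End F (Fin a → F)} (h : D.Mem M (D.quad v c P E E' R)) :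
    D.Mem M (D.quad (v + sie D.g u y v) (c + sie D.g u y c) P E E' R) := by
  obtain ⟨k, hk, hkX⟩ := hM.right u y hu huy
  refine h.conj hk fun X => ?_
  simp only [quad, LinearMap.add_apply, map_add, cr_moved hu huy hkX]

lemma quad_left {x y : Fin a → F} (hx : D.f x x = 0) (hxy : D.f x y = 0) {v c : Fin b → F}
    {P E E' R : Module.End F (Fin a → F)} (h : D.Mem M (D.quad v c P E E' R)) :
    D.Mem M (D.quad v c ((1 + sie D.f x y) * (P * (1 + sie D.f x (-y))))
      ((1 + sie D.f x y) * (E * (1 + sie D.f x (-y))))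
      ((1 + sie D.f x y) * (E' * (1 + sie D.f x (-y))))
      ((1 + sie D.f x y) * (R * (1 + sie D.f x (-y))))) := by
  obtain ⟨k, hk, hkX⟩ := hM.left x y hx hxy
  have hkA : ∀ X, k.1 X = leftMap (1 + sie D.f x y) X := fun X => by
    rw [hkX]
    show _ = LinearMap.toMatrix' ((1 : Module.End F (Fin a → F)) + sie D.f x y) * X
    rw [map_add, Module.End.one_eq_id, LinearMap.toMatrix'_id, Matrix.add_mul, Matrix.one_mul]
    rfl
  have hA : (1 + sie D.f x y) * (1 + sie D.f x (-y)) = (1 : Module.End F (Fin a → F)) := by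
    rw [D.hf.sie_comp hx hxy (by rw [map_neg, hxy, neg_zero]), add_neg_cancel, Sym.sie_zero, add_zero]
  refine h.conj hk fun X => ?_
  simp only [quad, LinearMap.add_apply, map_add, hkA, leftMap_conj hA, mul_assoc]

variable [Finite F]
include hD

/-- A root element at one line gives all of them. -/
lemma roots_of_cr {v : Fin b → F} (hv : D.g v v = 0) (hv0 : v ≠ 0)
    {P : Module.End F (Fin a → F)} (hP : ∀ u u', D.f (P u) u' = -D.f u (P u')) (hP0 : P ≠ 0)
    (h : D.Mem M (D.cr v v P)) : D.Roots M v := by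
  have ha : 3 ≤ finrank F (Fin a → F) := by rw [finrank_fin_fun]; exact hD.three
  have hzero : ∀ P P' : Module.End F (Fin a → F), D.cr v v P * D.cr v v P' = 0 := fun P P' => by
    rw [cr_mul_cr, hv, zero_smul]
  let S : AddSubgroup (Module.End F (Fin a → F)) :=
    { carrier := {P | D.Mem M (D.cr v v P) ∧ ∀ u u', D.f (P u) u' = -D.f u (P u')}
      zero_mem' := ⟨mem_zero.congr (cr_zero v v).symm, fun u u' => by simp⟩
      add_mem' := fun {P P'} hP hP' => ⟨(hP.1.add hP'.1 (hzero P P')).congr (cr_add v v P P').symm,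
        fun u u' => by
          simp only [LinearMap.add_apply, map_add, hP.2 u u', hP'.2 u u']
          ring⟩
      neg_mem' := fun {P} hP => ⟨(hP.1.neg (hzero P P)).congr (cr_neg v v P).symm,
        fun u u' => by simp [hP.2 u u']⟩ }
  have hconj : ∀ x y, D.f x x = 0 → D.f x y = 0 → ∀ P ∈ S,
      (1 + sie D.f x y) * (P * (1 + sie D.f x (-y))) ∈ S := by
    intro x y hx hxy P hP
    refine ⟨?_, fun u u' => ?_⟩
    · have h1 := quad_left hM hx hxy (v := v) (c := v) (E := 0) (E' := 0) (R := 0)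
        (P := P) (hP.1.congr (by simp [quad, cr_zero]))
      exact h1.congr (by simp [quad, cr_zero])
    · have hny : D.f x (-y) = 0 := by rw [map_neg, hxy, neg_zero]
      have hcomp := D.hf.sie_comp hx hxy hny
      rw [add_neg_cancel, Sym.sie_zero, add_zero] at hcomp
      have hback : ∀ w, (1 + sie D.f x y) ((1 + sie D.f x (-y)) w) = w := fun w =>
        LinearMap.congr_fun hcomp w
      simp only [Module.End.mul_apply]
      conv_lhs => arg 2; rw [← hback u']
      conv_rhs => arg 1; arg 1; arg 2; rw [← hback u]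
      simp only [LinearMap.add_apply, Module.End.one_apply, D.hf.sie_skew hx hxy]
      exact hP.2 _ _
  obtain ⟨x, -, hx0, hx⟩ := D.hf.exists_iso (S := (⊤ : Submodule F (Fin a → F)))
    (by rw [finrank_top]; exact ha)
  obtain ⟨x', hxx'⟩ := D.hf.exists_hyp hx hx0
  obtain ⟨P₀, hP₀, hP₀0, hfix⟩ := D.hf.exists_fixed hx S ⊥ (fun y hy P hP => hconj x y hx hy P hP)
    (fun y hy P hP => by
      rw [AddSubgroup.mem_bot] at hP ⊢
      rw [hP, zero_mul, mul_zero]) ⟨P, ⟨h, hP⟩, by simpa using hP0⟩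
  obtain ⟨hr1, hr2, hPw⟩ := D.hf.fixed_skew ha hxx' hP₀.2 fun y hy => by simpa using hfix y hy
  have hw0 : P₀ x' ≠ 0 := fun h0 => hP₀0 (by
    rw [AddSubgroup.mem_bot, hPw, h0]
    exact LinearMap.ext fun z => by simp [wed_apply])
  have hS : ∀ x y, D.f x x = 0 → D.f x y = 0 → ∀ p q, wed D.f p q ∈ S →
      wed D.f (p + sie D.f x y p) (q + sie D.f x y q) ∈ S := fun x y hx hxy p q hpq => by
    rw [← D.hf.wed_conj hx hxy]
    exact hconj x y hx hxy _ hpq
  obtain ⟨p, p', hpp, hall⟩ := D.hf.exists_all_hyp hS ha hD.spare hxx' hr1 hr2 hw0 (hPw ▸ hP₀)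
  exact fun u u' => (D.hf.all_wed_of_hyp hS hpp hall u u').1

/-- A member at a pair which is not a multiple of the root element gives root elements. -/
lemma roots_of_quad {v c : Fin b → F} (hp : Pair₂ D.g v c) {P E E' R : Module.End F (Fin a → F)}
    (h : D.Mem M (D.quad v c P E E' R))
    (hne : ¬ ∃ α : F, P = 0 ∧ R = 0 ∧ E = α • 1 ∧ E' = -(α • 1)) :
    ∃ w, D.g w w = 0 ∧ w ≠ 0 ∧ D.Roots M w := by
  classical
  have ha : 3 ≤ finrank F (Fin a → F) := by rw [finrank_fin_fun]; exact hD.three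
  have hbig : (∃ t : F, t ≠ 0 ∧ t * t ≠ 1) ∨ 4 ≤ finrank F (Fin a → F) := by
    rw [finrank_fin_fun]; exact hD.big
  have hb : 5 ≤ finrank F (Fin b → F) := by rw [finrank_fin_fun]; exact hD.five
  -- shifting the second vector
  have shift : ∀ (v c : Fin b → F), Pair₂ D.g v c → ∀ (P E E' R : Module.End F (Fin a → F)),
      D.Mem M (D.quad v c P E E' R) →
      D.Mem M (D.cr v v (R + R)) ∧ (R = 0 → D.Mem M (D.cr v v (E + E'))) := by
    intro v c hp P E E' R h
    obtain ⟨v', c', hv, hc, h3, h2, h4⟩ := D.hg.exists_companions hp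
    have hcc' : D.g c' c = 1 := by rw [D.hg.symm, hc.2.2]
    have hm : ∀ s : F, D.Mem M (D.quad v (c + s • v) P E E' R) := fun s => by
      have := quad_moved hM (u := v) (y := (-s) • c') hp.2.2.1 (by simp [h2]) h
      convert this using 2
      · simp [sie_apply, hp.2.2.1, D.hg.perp_symm h2]
      · simp [sie_apply, hp.2.2.2.2, hcc', hc.2.1]
    have he : ∀ s : F, D.quad v (c + s • v) P E E' R =
        D.quad v c (P + s • (E + E') + (s * s) • R) (E + s • R) (E' + s • R) R := fun s => by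
      simp only [quad, cr_add, cr_smul, cr_add_left, cr_add_right, cr_smul_left, cr_smul_right]
      module
    have h1 := hm 1
    have hm1 := hm (-1)
    rw [he] at h1 hm1
    constructor
    · have hn := h.neg (quad_mul_quad hp _ _ _ _ _ _ _ _)
      refine (((h1.add hm1 (quad_mul_quad hp _ _ _ _ _ _ _ _)).add
        (hn.add hn (by rw [end_neg_mul, end_mul_neg, quad_mul_quad hp]; simp)) ?_)).congr ?_
      · rw [add_mul, mul_add, mul_add, end_mul_neg, end_mul_neg, quad_mul_quad hp, quad_mul_quad hp]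
        simp
      · simp only [quad, cr_add, cr_smul]
        module
    · rintro rfl
      refine ((h1.add (h.neg (quad_mul_quad hp _ _ _ _ _ _ _ _))
        (by rw [end_mul_neg, quad_mul_quad hp, neg_zero]))).congr ?_
      simp only [quad, cr_add, cr_smul, cr_zero]
      module
  obtain ⟨v', c', hv, hc, h3, h2, h4⟩ := D.hg.exists_companions hp
  obtain ⟨hPs, hRs, hEs⟩ := quad_rel hv hc hp.2.2.2.2 h2 h3 h4 h
  have hdouble : ∀ Q' : Module.End F (Fin a → F), Q' + Q' = 0 → Q' = 0 := fun Q' hQ' => by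
    rw [← two_smul F, smul_eq_zero] at hQ'
    exact hQ'.resolve_left D.hf.two
  by_cases hR : R = 0
  swap
  · exact ⟨v, hp.2.2.1, hp.1, roots_of_cr hD hM hp.2.2.1 hp.1
      (fun u u' => by simp only [LinearMap.add_apply, map_add, hRs u u']; ring)
      (fun h0 => hR (hdouble R h0)) (shift v c hp P E E' R h).1⟩
  by_cases hP : P = 0
  swap
  · have hp' : Pair₂ D.g c v := ⟨fun h0 => hp.2.1 (h0 ▸ zero_mem _), fun hm => hp.2.1 (by
      obtain ⟨t, ht⟩ := Submodule.mem_span_singleton.1 hm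
      have ht0 : t ≠ 0 := fun h0 => hp.1 (by rw [← ht, h0, zero_smul])
      exact Submodule.mem_span_singleton.2 ⟨t⁻¹, by rw [← ht, inv_smul_smul₀ ht0]⟩),
      hp.2.2.2.1, hp.2.2.1, D.hg.perp_symm hp.2.2.2.2⟩
    exact ⟨c, hp.2.2.2.1, hp'.1, roots_of_cr hD hM hp.2.2.2.1 hp'.1
      (fun u u' => by simp only [LinearMap.add_apply, map_add, hPs u u']; ring)
      (fun h0 => hP (hdouble P h0))
      (shift c v hp' R E' E P (h.congr (by simp only [quad]; abel))).1⟩
  by_cases hEE : E + E' = 0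
  swap
  · exact ⟨v, hp.2.2.1, hp.1, roots_of_cr hD hM hp.2.2.1 hp.1
      (fun u u' => by
        have e1 := hEs u u'
        have e2 := hEs u' u
        rw [D.hf.symm (E' u') u, D.hf.symm u' (E u)] at e2
        simp only [LinearMap.add_apply, map_add]
        linear_combination e1 + e2) hEE ((shift v c hp P E E' R h).2 hR)⟩
  subst hP hR
  obtain rfl : E' = -E := eq_neg_of_add_eq_zero_right hEE
  -- the self-adjoint case
  have hE : ∀ p q, D.f (E p) q = D.f p (E q) := fun p q => by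
    have := hEs p q
    rw [LinearMap.neg_apply, map_neg, LinearMap.neg_apply] at this
    exact neg_injective this
  let S : AddSubgroup (Module.End F (Fin a → F)) :=
    { carrier := {E | D.Mem M (D.quad v c 0 E (-E) 0) ∧ ∀ p q, D.f (E p) q = D.f p (E q)}
      zero_mem' := ⟨mem_zero.congr (by simp [quad, cr_zero]), fun p q => by simp⟩
      add_mem' := fun {E E'} hE hE' => ⟨(hE.1.add hE'.1 (quad_mul_quad hp _ _ _ _ _ _ _ _)).congr
        (by simp only [quad, cr_add, cr_neg, cr_zero]; abel),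
        fun p q => by simp only [LinearMap.add_apply, map_add, hE.2, hE'.2]⟩
      neg_mem' := fun {E} hE => ⟨(hE.1.neg (quad_mul_quad hp _ _ _ _ _ _ _ _)).congr
        (by simp only [quad, cr_neg, cr_zero]; abel), fun p q => by simp [hE.2]⟩ }
  let Z : AddSubgroup (Module.End F (Fin a → F)) :=
    (Submodule.span F {(1 : Module.End F (Fin a → F))}).toAddSubgroup
  have hscal : ∀ α : F, α • (1 : Module.End F (Fin a → F)) ∈ S := fun α => by
    refine ⟨?_, fun p q => by simp⟩
    refine (hM.right c (α • v) hp.2.2.2.1 (by simp [D.hg.perp_symm hp.2.2.2.2])).congr ?_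
    simp only [sieW, quad, cr_zero, cr_neg, cr_smul, cr_smul_left, cr_smul_right, map_smul,
      LinearMap.smul_apply, hp.2.2.1, smul_eq_mul, mul_zero, zero_div, zero_smul, sub_zero]
    abel
  obtain ⟨x, -, hx0, hx⟩ := D.hf.exists_iso (S := (⊤ : Submodule F (Fin a → F)))
    (by rw [finrank_top]; exact ha)
  obtain ⟨x', hxx'⟩ := D.hf.exists_hyp hx hx0
  have hEZ : E ∉ Z := fun hm => by
    obtain ⟨α, rfl⟩ := Submodule.mem_span_singleton.1 hm
    exact hne ⟨α, rfl, rfl, rfl, rfl⟩
  have hcomp : ∀ y, D.f x y = 0 →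
      (1 + sie D.f x y) * (1 + sie D.f x (-y)) = (1 : Module.End F (Fin a → F)) := fun y hy => by
    rw [D.hf.sie_comp hx hy (by rw [map_neg, hy, neg_zero]), add_neg_cancel, Sym.sie_zero, add_zero]
  obtain ⟨E₀, hE₀, hE₀Z, hfix⟩ := D.hf.exists_fixed hx S Z
    (fun y hy E hE => by
      refine ⟨(quad_left hM hx hy hE.1).congr (by simp [quad, cr_zero, endU_neg]), fun p q => ?_⟩
      have hback : ∀ w, (1 + sie D.f x y) ((1 + sie D.f x (-y)) w) = w := fun w =>
        LinearMap.congr_fun (hcomp y hy) w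
      simp only [Module.End.mul_apply]
      conv_lhs => arg 2; rw [← hback q]
      conv_rhs => arg 1; arg 2; rw [← hback p]
      simp only [LinearMap.add_apply, Module.End.one_apply, D.hf.sie_skew hx hy]
      exact hE.2 _ _)
    (fun y hy E hE => by
      obtain ⟨α, rfl⟩ := Submodule.mem_span_singleton.1 hE
      rw [smul_mul_assoc, mul_smul_comm, one_mul, hcomp y hy]
      exact Submodule.smul_mem _ _ (Submodule.mem_span_singleton_self _))
    ⟨E, ⟨h, hE⟩, hEZ⟩
  obtain ⟨α, μ, hEeq⟩ := D.hf.fixed_sym ha hbig hxx' hE₀.2 fun y hy => by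
    obtain ⟨l, hl⟩ := Submodule.mem_span_singleton.1 (hfix y hy)
    exact ⟨l, hl.symm⟩
  have hμ : μ ≠ 0 := fun h0 => hE₀Z (by
    rw [hEeq, h0, zero_smul, add_zero]
    exact Submodule.smul_mem _ _ (Submodule.mem_span_singleton_self _))
  set X := μ • (D.f x).smulRight x with hX
  have hXmem : D.Mem M (D.quad v c 0 X (-X) 0) := by
    have := sub_mem hE₀ (hscal α)
    rw [hEeq, add_sub_cancel_left] at this
    exact this.1
  -- a second such member at a pair meeting the first one
  obtain ⟨e, he1, he2, hee⟩ := D.hf.exists_aniso_hyp ha hxx'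
  obtain ⟨z, hz1, hz2, hzz⟩ : ∃ z, D.g v z = 0 ∧ D.g c' z = 0 ∧ D.g z z ≠ 0 := by
    obtain ⟨w, hw, hwp⟩ := Sym.exists_perp_avoid (g := D.g) ![v, c'] (Submodule.span F {v, c'}) (by
      have := SData.finrank_span_pair v c'; omega)
    obtain ⟨y, hy, hyS⟩ := D.hg.exists_pair_sub hw
    obtain ⟨z, hz, hzz⟩ := D.hg.aniso_of_pair (S := LinearMap.ker (LinearMap.pi fun i => D.g (![v, c'] i)))
      (x := w) (y := y) (LinearMap.mem_ker.2 (funext fun i => hwp i))
      (LinearMap.mem_ker.2 (funext fun i => by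
        fin_cases i
        · exact hyS v (Submodule.subset_span (by simp))
        · exact hyS c' (Submodule.subset_span (by simp))))
      (by rw [hy]; exact one_ne_zero)
    exact ⟨z, congrFun (LinearMap.mem_ker.1 hz) 0, congrFun (LinearMap.mem_ker.1 hz) 1, hzz⟩
  set d := c + sie D.g c' z c with hd
  set y := x + sie D.f x' e x with hy
  have hd1 : D.g v d = 0 := by
    simp [hd, sie_apply, hp.2.2.2.2, h2, hz1]
  have hd2 : D.g d d = 0 := by rw [hd, D.hg.sie_skew hc.2.1 hz2, hp.2.2.2.1]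
  have hκ : D.g d c = -(D.g z z / 2) := by
    simp [hd, sie_apply, D.hg.symm c' c, hc.1, hc.2.2, D.hg.symm z c]
  have hvd : v + sie D.g c' z v = v := by
    simp [sie_apply, D.hg.perp_symm h2, D.hg.perp_symm hz1]
  have hyx : D.f x y = -(D.f e e / 2) := by
    simp [hy, sie_apply, hxx'.1, hxx'.2.2, D.hf.symm x' x, he1, D.hf.perp_symm he1]
  obtain ⟨X', hX'mem, hX'⟩ : ∃ X', D.Mem M (D.quad v d 0 X' (-X') 0) ∧
      X' = μ • (D.f y).smulRight y := by
    have h1 := quad_left hM hxx'.2.1 he2 (quad_moved hM hc.2.1 hz2 hXmem)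
    rw [hvd, ← hd] at h1
    refine ⟨(1 + sie D.f x' e) * (X * (1 + sie D.f x' (-e))), h1.congr (by simp [quad, cr_zero, endU_neg]), ?_⟩
    refine LinearMap.ext fun w => ?_
    have hcomp' : (1 + sie D.f x' e) * (1 + sie D.f x' (-e)) = (1 : Module.End F (Fin a → F)) := by
      rw [D.hf.sie_comp hxx'.2.1 he2 (by rw [map_neg, he2, neg_zero]), add_neg_cancel, Sym.sie_zero,
        add_zero]
    have hb' : D.f x ((1 + sie D.f x' (-e)) w) = D.f y w := by
      conv_rhs => rw [show w = (1 + sie D.f x' e) ((1 + sie D.f x' (-e)) w) from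
        (LinearMap.congr_fun hcomp' w).symm, hy]
      simp only [LinearMap.add_apply, Module.End.one_apply, D.hf.sie_skew hxx'.2.1 he2]
    simp only [Module.End.mul_apply, hX, LinearMap.smul_apply, LinearMap.smulRight_apply, map_smul, hb']
    simp [hy]
  set κ := D.g d c with hκdef
  have hcd : D.g c d = κ := by rw [hκdef, D.hg.symm]
  have hsq : ∀ (c : Fin b → F), D.g c c = 0 → D.g v c = 0 → ∀ X : Module.End F (Fin a → F),
      D.quad v c 0 X (-X) 0 * D.quad v c 0 X (-X) 0 = 0 := fun c h1 h2 X => by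
    simp [quad, cr_zero, cr_neg, end_neg_mul, end_mul_neg, mul_add, add_mul, cr_mul_cr, h1, h2, D.hg.perp_symm h2, hp.2.2.1]
  have hmul : ∀ A B : Module.End F (Fin a → F),
      D.quad v c 0 A (-A) 0 * D.quad v d 0 B (-B) 0 = -(κ • D.cr v v (A * B)) ∧
      D.quad v d 0 A (-A) 0 * D.quad v c 0 B (-B) 0 = -(κ • D.cr v v (A * B)) := fun A B => by
    constructor <;>
    simp [quad, cr_zero, cr_neg, end_neg_mul, end_mul_neg, mul_add, add_mul, cr_mul_cr, hp.2.2.1, hp.2.2.2.2, hd1,
      D.hg.perp_symm hp.2.2.2.2, D.hg.perp_symm hd1, hcd, ← hκdef]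
  have hkill : ∀ A (B : Module.End F (Fin a → F)) (c : Fin b → F), D.g v c = 0 →
      D.cr v v A * D.quad v c 0 B (-B) 0 = 0 := fun A B c h1 => by
    simp [quad, cr_zero, cr_neg, end_mul_neg, mul_add, cr_mul_cr, hp.2.2.1, D.hg.perp_symm h1]
  have hcomm := hXmem.comm hX'mem (hsq c hp.2.2.2.1 hp.2.2.2.2 X) (hsq d hd2 hd1 X')
    (by rw [(hmul X X').1, end_neg_mul, smul_mul_assoc, hkill _ _ c hp.2.2.2.2, smul_zero, neg_zero])
    (by rw [(hmul X' X).2, end_neg_mul, smul_mul_assoc, hkill _ _ d hd1, smul_zero, neg_zero])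
  rw [(hmul X X').1, (hmul X' X).2] at hcomm
  have hκ0 : κ ≠ 0 := by rw [hκ]; exact neg_ne_zero.2 (div_ne_zero hzz D.hg.two)
  set φ := D.f x y with hφdef
  have hφ : φ ≠ 0 := by rw [hyx]; exact neg_ne_zero.2 (div_ne_zero hee D.hf.two)
  refine ⟨v, hp.2.2.1, hp.1, roots_of_cr hD hM hp.2.2.1 hp.1
    (P := (-(κ * μ * μ * φ)) • wed D.f x y) (fun u u' => ?_) ?_ ?_⟩
  · simp [wed_apply, D.hf.symm u x, D.hf.symm u y, D.hf.symm y u', D.hf.symm x u']
    ring
  · intro h0
    rw [smul_eq_zero, neg_eq_zero] at h0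
    have h0' := h0.resolve_left (by simp [hκ0, hμ, hφ])
    have := congrArg (D.f x') (LinearMap.congr_fun h0' x)
    simp [wed_apply, hxx'.1, D.hf.symm x' x, hxx'.2.2, D.hf.symm y x] at this
    exact hφ this
  · refine hcomm.congr ?_
    rw [← neg_add_eq_sub, ← cr_smul, ← cr_smul, ← cr_neg, ← cr_neg, ← cr_neg, ← cr_add]
    congr 1
    refine LinearMap.ext fun w => ?_
    simp [hX, hX', wed_apply, D.hf.symm y x, ← hφdef]
    module

/-- The standing hypothesis of the pairing lemma. -/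
theorem tame (hno : ∀ w, D.g w w = 0 → w ≠ 0 → ¬ D.Roots M w) {v c : Fin b → F}
    (hp : Pair₂ D.g v c) : QuadPair.Tame (M.map D.toEnd) (D.nn v c) := by
  have h2 := D.hg.two
  obtain ⟨v', c', hv, hc, h3, h2', h4⟩ := D.hg.exists_companions hp
  have hv' : D.g v' v = 1 := by rw [D.hg.symm, hv.2.2]
  have hc' : D.g c' c = 1 := by rw [D.hg.symm, hc.2.2]
  have h1 := hp.2.2.2.2
  have s : ∀ {x y}, D.g x y = 0 → D.g y x = 0 := fun h => D.hg.perp_symm h
  have hN : ∀ X, D.nn v c X = colMap v (D.row c X) - colMap c (D.row v X) := fun X => by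
    simp [nn, cr_apply]
  have root : ∀ L : Module.End F (Matrix (Fin a) (Fin b) F),
      LinearMap.range L ≤ LinearMap.range (D.nn v c) →
      LinearMap.ker (D.nn v c) ≤ LinearMap.ker L → D.Mem M L → ∃ t : F, L = t • D.nn v c := by
    intro L hr hk hL
    have hker : ∀ X, L X = L (colMap v' (D.row v X)) + L (colMap c' (D.row c X)) := fun X => by
      have hmem : X - colMap v' (D.row v X) - colMap c' (D.row c X) ∈ LinearMap.ker (D.nn v c) := by
        rw [LinearMap.mem_ker, hN]
        simp [row_col, hv', hc', h3, s h2']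
      have := LinearMap.mem_ker.1 (hk hmem)
      rw [map_sub, map_sub, sub_sub, sub_eq_zero] at this
      exact this
    have hrg : ∀ X, L X = colMap v (D.row v' (L X)) + colMap c (D.row c' (L X)) := fun X => by
      obtain ⟨Y, hY⟩ := hr ⟨X, rfl⟩
      rw [← hY, hN]
      simp [row_col, hv.2.2, hc.2.2, s h3, h2', sub_eq_add_neg]
    have heq : L = D.quad v c (D.row v' ∘ₗ L ∘ₗ colMap v') (D.row v' ∘ₗ L ∘ₗ colMap c')
        (D.row c' ∘ₗ L ∘ₗ colMap v') (D.row c' ∘ₗ L ∘ₗ colMap c') := LinearMap.ext fun X => by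
      rw [hrg, hker X]
      simp [quad, cr_apply, map_add]
      abel
    by_contra hne
    obtain ⟨w, hw, hw0, hR⟩ := roots_of_quad hD hM hp (heq ▸ hL) fun ⟨α, e1, e2, e3, e4⟩ => hne
      ⟨α, by rw [heq, e1, e2, e3, e4]; simp [quad, nn, cr_zero, cr_neg, cr_smul, smul_sub, sub_eq_add_neg]⟩
    exact hno w hw hw0 hR
  refine ⟨fun L h1 h2 h3 => root L h1 h2 (memG_iff.1 h3), ?_⟩
  rintro _ ⟨m, hm, rfl⟩ r hgN hNg hker
  haveI : Finite (Matrix (Fin a) (Fin b) F) := Module.finite_of_finite F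
  have hgN' : ∀ X, m.1 (D.nn v c X) = r (D.nn v c X) := fun X => LinearMap.congr_fun hgN X
  have hNg' : ∀ X, D.nn v c (m.1.symm X) = r (D.nn v c X) := fun X => by
    have := LinearMap.congr_fun hNg X
    rw [Module.End.mul_apply, ← map_inv, toEnd_apply] at this
    exact this
  set W := LinearMap.range (D.nn v c) with hW
  have hdown : ∀ X ∈ W, m.1 X ∈ W := by
    rintro _ ⟨X, rfl⟩
    rw [hgN', ← hNg']
    exact ⟨_, rfl⟩
  have hup : ∀ X ∈ W, m.1.symm X ∈ W := fun X hX => by
    obtain ⟨⟨Y, hY⟩, hYX⟩ := Finite.surjective_of_injective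
      (f := fun Y : W => (⟨m.1 Y, hdown Y Y.2⟩ : W))
      (fun Y Z h => Subtype.ext (m.1.injective (congrArg Subtype.val h))) ⟨X, hX⟩
    rw [← show m.1 Y = X from congrArg Subtype.val hYX, LinearEquiv.symm_apply_apply]
    exact hY
  have hWv : ∀ u, colMap v u ∈ W := fun u => ⟨colMap c' u, by
    rw [hN]; simp [row_col, hc', s h2']⟩
  have hWc : ∀ u, colMap c u ∈ W := fun u => ⟨-colMap v' u, by
    rw [hN]; simp [row_col, hv', h3]⟩
  obtain ⟨p, hp1, hp2, hp3, hp4, hpp⟩ : ∃ p, D.g v p = 0 ∧ D.g c p = 0 ∧ D.g v' p = 0 ∧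
      D.g c' p = 0 ∧ D.g p p ≠ 0 := by
    obtain ⟨w, hw, hwp⟩ := Sym.exists_perp_avoid (g := D.g) ![v, c, v', c'] ⊥ (by
      rw [finrank_bot, finrank_fin_fun]; have := hD.five; omega)
    have hwS : w ∉ Submodule.span F {v, c, v', c'} := fun hm => by
      refine hw ((Submodule.mem_bot F).2 (D.hg.nd w fun y => ?_))
      set y₀ := y - D.g v' y • v - D.g c' y • c - D.g v y • v' - D.g c y • c' with hy₀
      have hy₀S : ∀ q ∈ ({v, c, v', c'} : Set (Fin b → F)), D.g q y₀ = 0 := by
        rintro q (rfl | rfl | rfl | rfl) <;>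
          simp [hy₀, hv.1, hv.2.1, hv.2.2, hv', hc.1, hc.2.1, hc.2.2, hc', h1, s h1, h2', s h2', h3,
            s h3, h4, s h4]
      have e0' : ∀ z ∈ Submodule.span F ({v, c, v', c'} : Set (Fin b → F)), D.g z y₀ = 0 := fun z hz => by
        induction hz using Submodule.span_induction with
        | mem q hq => exact hy₀S q hq
        | zero => simp
        | add q q' _ _ e e' => rw [map_add, LinearMap.add_apply, e, e', add_zero]
        | smul t q _ e => rw [map_smul, LinearMap.smul_apply, e, smul_zero]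
      have e0 : D.g w y₀ = 0 := e0' w hm
      rw [show y = y₀ + D.g v' y • v + D.g c' y • c + D.g v y • v' + D.g c y • c' by rw [hy₀]; abel]
      have := fun i => hwp i
      simp [map_add, map_smul, e0, D.hg.symm y₀ w, D.hg.symm w, show D.g v w = 0 from hwp 0,
        show D.g c w = 0 from hwp 1, show D.g v' w = 0 from hwp 2, show D.g c' w = 0 from hwp 3]
    obtain ⟨y, hy, hyS⟩ := D.hg.exists_pair_sub hwS
    obtain ⟨p, hpS, hpp⟩ := D.hg.aniso_of_pair
      (S := LinearMap.ker (LinearMap.pi fun i => D.g (![v, c, v', c'] i))) (x := w) (y := y)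
      (LinearMap.mem_ker.2 (funext fun i => hwp i))
      (LinearMap.mem_ker.2 (funext fun i => by
        fin_cases i <;> exact hyS _ (Submodule.subset_span (by simp))))
      (by rw [hy]; exact one_ne_zero)
    have e := fun i => congrFun (LinearMap.mem_ker.1 hpS) i
    exact ⟨p, e 0, e 1, e 2, e 3, hpp⟩
  have hp' : ∀ u, m.1.symm (colMap p u) - colMap p u ∈ W := fun u => by
    have h5 : m.1 (colMap p u) - colMap p u ∈ W :=
      hker _ (by rw [hN]; simp [row_col, s hp1, s hp2])
    have := neg_mem (hup _ h5)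
    rwa [map_sub, LinearEquiv.symm_apply_apply, neg_sub] at this
  have hp'' : ∀ u, m.1 (colMap p u) - colMap p u ∈ W := fun u =>
    hker _ (by rw [hN]; simp [row_col, s hp1, s hp2])
  have hsq0 : ∀ X ∈ W, D.row v X = 0 ∧ D.row c X = 0 ∧ D.row p X = 0 := by
    rintro _ ⟨X, rfl⟩
    rw [hN]
    simp [row_col, hp.2.2.1, hp.2.2.2.1, h1, s h1, s hp1, s hp2, hp1, hp2]
  -- the commutators
  let gE : Module.End F (Matrix (Fin a) (Fin b) F) := m.1.toLinearMap
  let giE : Module.End F (Matrix (Fin a) (Fin b) F) := m.1.symm.toLinearMap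
  have one : ∀ v c : Fin b → F, D.g v v = 0 → D.g c c = 0 → D.g v c = 0 → D.g v p = 0 →
      D.g c p = 0 → (∀ u, colMap v u ∈ W) → (∀ u, colMap c u ∈ W) →
      (∀ X ∈ W, D.row v X = 0 ∧ D.row c X = 0 ∧ D.row p X = 0) →
      D.Mem M ((-D.g p p) • (gE * D.cr v c 1 -
        D.cr c v 1 * giE)) := by
    intro v c hvv hcc hvc hvp hcp hWv hWc hsq0
    obtain ⟨k₁, hk₁, hk₁X⟩ := hM.right v p hvv hvp
    obtain ⟨k₂, hk₂, hk₂X⟩ := hM.right c p hcc hcp
    set x := m * k₁ * m⁻¹ with hx
    have hxm : x ∈ M := mul_mem (mul_mem hm hk₁) (inv_mem hm)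
    set C : Module.End F (Matrix (Fin a) (Fin b) F) := (-D.g p p) •
      (gE * D.cr v c 1 -
        D.cr c v 1 * giE) with hC
    have hxX : ∀ X, x.1 X = X + m.1 (D.sieW v p (m.1.symm X)) := fun X => by
      rw [hx, Subgroup.coe_mul, Subgroup.coe_mul, LinearEquiv.mul_apply, LinearEquiv.mul_apply,
        hk₁X, map_add]
      show m.1 (m.1.symm X) + _ = _
      rw [LinearEquiv.apply_symm_apply]
      rfl
    have hL : ∀ (w : Fin b → F), D.g w p = 0 → (∀ X ∈ W, D.row w X = 0) →
        ∀ X ∈ W, D.sieW w p X = 0 := fun w hw hr X hX => by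
      simp [sieW, cr_apply, hr X hX, (hsq0 X hX).2.2]
    have hL1 : ∀ X ∈ W, D.sieW v p X = 0 := hL v hvp fun X hX => (hsq0 X hX).1
    have hL2 : ∀ X ∈ W, D.sieW c p X = 0 := hL c hcp fun X hX => (hsq0 X hX).2.1
    have hCW : ∀ X, C X ∈ W := fun X => by
      rw [hC]
      refine W.smul_mem _ (sub_mem ?_ ?_)
      · exact hdown _ (hWv _)
      · exact hWc _
    have hcomm : ∀ X, (x.1 (k₂.1 X)) = k₂.1 (x.1 (X + C X)) := fun X => by
      have hx0 : ∀ Y ∈ W, x.1 Y = Y := fun Y hY => by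
        rw [hxX, hL1 _ (hup Y hY), map_zero, add_zero]
      have hk0 : ∀ Y ∈ W, k₂.1 Y = Y := fun Y hY => by rw [hk₂X, hL2 Y hY, add_zero]
      rw [map_add, map_add, hx0 _ (hCW X), hk0 _ (hCW X)]
      have e1 : m.1 (D.sieW v p (m.1.symm (D.sieW c p X))) =
          (-D.g p p) • m.1 (colMap v (D.row c X)) := by
        have hd : D.sieW v p (m.1.symm (colMap p (D.row c X))) = D.sieW v p (colMap p (D.row c X)) := by
          rw [← sub_eq_zero, ← map_sub, hL1 _ (hp' _)]
        have hd' : ∀ u, D.sieW v p (m.1.symm (colMap c u)) = 0 := fun u => hL1 _ (hup _ (hWc u))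
        simp only [sieW, LinearMap.sub_apply, LinearMap.smul_apply, cr_apply, map_sub, map_smul] at hd hd' ⊢
        simp only [Module.End.one_apply] at hd hd' ⊢
        have := congrArg m.1 hd
        simp only [map_sub, map_smul] at this
        have h6 := fun u => congrArg m.1 (hd' u)
        simp only [map_sub, map_smul, map_zero] at h6
        rw [← sub_eq_zero] at this
        simp [row_col, D.hg.symm p v, hvp] at this ⊢
        have h7 := h6 (D.row p X)
        have h8 := h6 ((D.g p p / 2) • D.row c X)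
        simp only [map_smul] at h8
        linear_combination (norm := module) this - h7 - h8
      have e2 : D.sieW c p (m.1 (D.sieW v p (m.1.symm X))) =
          (-D.g p p) • colMap c (D.row v (m.1.symm X)) := by
        have hd : D.sieW c p (m.1 (colMap p (D.row v (m.1.symm X)))) =
            D.sieW c p (colMap p (D.row v (m.1.symm X))) := by
          rw [← sub_eq_zero, ← map_sub, hL2 _ (hp'' _)]
        have hd' : ∀ u, D.sieW c p (m.1 (colMap v u)) = 0 := fun u => hL2 _ (hdown _ (hWv u))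
        simp only [sieW, LinearMap.sub_apply, LinearMap.smul_apply, cr_apply, map_sub, map_smul] at hd hd' ⊢
        simp only [Module.End.one_apply] at hd hd' ⊢
        have h7 := hd' (D.row p (m.1.symm X))
        have h8 := hd' ((D.g p p / 2) • D.row v (m.1.symm X))
        simp only [map_smul] at h8
        rw [← sub_eq_zero] at hd
        simp [row_col, D.hg.symm p c, hcp] at hd ⊢
        linear_combination (norm := module) hd - h7 - h8
      have hCX : C X = (-D.g p p) • m.1 (colMap v (D.row c X)) -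
          (-D.g p p) • colMap c (D.row v (m.1.symm X)) := by
        rw [hC, ← smul_sub]; rfl
      rw [hxX (k₂.1 X), hk₂X X, hk₂X (x.1 X), hxX X, hCX, map_add, map_add, map_add, map_add, e1, e2]
      abel
    refine ⟨(k₂ * x)⁻¹ * (x * k₂), mul_mem (inv_mem (mul_mem hk₂ hxm)) (mul_mem hxm hk₂), fun X => ?_⟩
    refine (k₂ * x).1.injective ?_
    rw [← LinearEquiv.mul_apply, ← Subgroup.coe_mul, mul_inv_cancel_left, Subgroup.coe_mul,
      Subgroup.coe_mul, LinearEquiv.mul_apply, LinearEquiv.mul_apply]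
    exact hcomm X
  have A := one v c hp.2.2.1 hp.2.2.2.1 h1 hp1 hp2 hWv hWc hsq0
  have B := one c v hp.2.2.2.1 hp.2.2.1 (s h1) hp2 hp1 hWc hWv
    (fun X hX => ⟨(hsq0 X hX).2.1, (hsq0 X hX).1, (hsq0 X hX).2.2⟩)
  set T := ((-(2 * D.g p p)) • (r * D.nn v c) : Module.End F (Matrix (Fin a) (Fin b) F)) with hT
  have hTW : ∀ X, T X ∈ W := fun X => by
    rw [hT]; exact W.smul_mem _ (by rw [Module.End.mul_apply, ← hNg']; exact ⟨_, rfl⟩)
  have hkill : ∀ v c : Fin b → F, (∀ u, colMap v u ∈ W) → (∀ u, colMap c u ∈ W) → ∀ X,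
      ((-D.g p p) • (gE * D.cr v c 1 -
        D.cr c v 1 * giE)) X ∈ W :=
    fun v c hv hc X => W.smul_mem _ (sub_mem (hdown _ (hv _)) (hc _))
  have hzero : ∀ v c : Fin b → F, (∀ X ∈ W, D.row v X = 0) → (∀ X ∈ W, D.row c X = 0) →
      ∀ X ∈ W, ((-D.g p p) • (gE * D.cr v c 1 -
        D.cr c v 1 * giE)) X = 0 :=
    fun v c hv hc X hX => by
      have : D.row v (m.1.symm X) = 0 := hv _ (hup X hX)
      simp only [LinearMap.smul_apply, LinearMap.sub_apply, Module.End.mul_apply, cr_apply,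
        hc X hX, map_zero, map_inv, Module.End.one_apply]
      show _ • (0 - colMap c (D.row v (m.1.symm X))) = 0
      rw [this, map_zero, sub_zero, smul_zero]
  obtain ⟨t, ht⟩ := root T (fun Y => by rintro ⟨X, rfl⟩; exact hTW X)
    (fun X hX => by
      rw [LinearMap.mem_ker] at hX ⊢
      rw [hT, LinearMap.smul_apply, Module.End.mul_apply, hX, map_zero, smul_zero])
    ((A.add (B.neg (LinearMap.ext fun X =>
      hzero c v (fun X hX => (hsq0 X hX).2.1) (fun X hX => (hsq0 X hX).1) _ (hkill c v hWc hWv X)))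
      (LinearMap.ext fun X => by
        rw [Module.End.mul_apply, LinearMap.neg_apply, map_neg,
          hzero v c (fun X hX => (hsq0 X hX).1) (fun X hX => (hsq0 X hX).2.1) _ (hkill c v hWc hWv X),
          neg_zero]; rfl)).congr (by
      refine LinearMap.ext fun X => ?_
      have e1 := hgN' X
      have e2 := hNg' X
      simp only [hN, map_sub] at e1 e2
      rw [hT]
      simp only [LinearMap.add_apply, LinearMap.neg_apply, LinearMap.smul_apply, LinearMap.sub_apply,
        Module.End.mul_apply, cr_apply, Module.End.one_apply, map_inv, hN, map_sub]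
      show (-D.g p p) • (m.1 (colMap v (D.row c X)) - colMap c (D.row v (m.1.symm X))) +
        -((-D.g p p) • (m.1 (colMap c (D.row v X)) - colMap v (D.row c (m.1.symm X)))) = _
      linear_combination (norm := module) (-D.g p p) • e1 + (-D.g p p) • e2))
  refine ⟨(-(2 * D.g p p))⁻¹ * t, ?_⟩
  rw [mul_smul, ← ht, hT, inv_smul_smul₀ (neg_ne_zero.2 (mul_ne_zero h2 hpp))]

end TD

end Cfsg.Agent.MaxSub.OrthTensor
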