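import Cfsg.Agent.MaxSub.OrthExt.Basic

/-!
Symmetric bilinear forms over a finite field of odd order: singular vectors, hyperbolic pairs and the
displacements of Eichler transformations.
-/

set_option autoImplicit false

namespace Cfsg.Agent.MaxSub.OrthTensor

open Module

variable {F W : Type*} [Field F] [AddCommGroup W] [Module F W]

/-- A non-degenerate symmetric form, `2 ≠ 0`. -/
structure Sym (g : W →ₗ[F] W →ₗ[F] F) : Prop where
  symm : ∀ x y, g x y = g y x
  nd : ∀ x, (∀ y, g x y = 0) → x = 0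
  two : (2 : F) ≠ 0

/-- A hyperbolic pair. -/
def Hyp (g : W →ₗ[F] W →ₗ[F] F) (v v' : W) : Prop := g v v = 0 ∧ g v' v' = 0 ∧ g v v' = 1

/-- Two independent orthogonal singular vectors. -/
def Pair₂ (g : W →ₗ[F] W →ₗ[F] F) (v c : W) : Prop :=
  v ≠ 0 ∧ c ∉ F ∙ v ∧ g v v = 0 ∧ g c c = 0 ∧ g v c = 0

/-- The displacement of an Eichler transformation. -/
def sie (g : W →ₗ[F] W →ₗ[F] F) (u y : W) : W →ₗ[F] W :=
  (g u).smulRight y - (g y).smulRight u - (g y y / 2) • (g u).smulRight u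

lemma sie_apply (g : W →ₗ[F] W →ₗ[F] F) (u y w : W) :
    sie g u y w = g u w • y - g y w • u - (g y y / 2 * g u w) • u := by
  simp [sie, smul_smul]

/-- The skew map of two vectors. -/
def wed (g : W →ₗ[F] W →ₗ[F] F) (p q : W) : W →ₗ[F] W :=
  (g q).smulRight p - (g p).smulRight q

lemma wed_apply (g : W →ₗ[F] W →ₗ[F] F) (p q w : W) : wed g p q w = g q w • p - g p w • q := by
  simp [wed]

namespace Sym

variable {g : W →ₗ[F] W →ₗ[F] F} (hg : Sym g)
include hg

lemma perp_symm {x y : W} (h : g x y = 0) : g y x = 0 := by rw [hg.symm, h]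

lemma aniso_of_pair {S : Submodule F W} {x y : W} (hx : x ∈ S) (hy : y ∈ S) (h : g x y ≠ 0) :
    ∃ z ∈ S, g z z ≠ 0 := by
  by_contra hc
  push Not at hc
  have h1 := hc _ (add_mem hx hy)
  simp only [map_add, LinearMap.add_apply, hc x hx, hc y hy, hg.symm y x, zero_add, add_zero] at h1
  rw [← two_mul] at h1
  exact mul_ne_zero hg.two h h1

lemma sie_skew {u y : W} (hu : g u u = 0) (huy : g u y = 0) (p q : W) :
    g (p + sie g u y p) (q + sie g u y q) = g p q := by
  have h2 := hg.two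
  simp only [sie_apply, map_add, map_sub, map_smul, LinearMap.add_apply, LinearMap.sub_apply,
    LinearMap.smul_apply, smul_eq_mul, hu, huy, hg.symm y u, hg.symm p u, hg.symm p y]
  field_simp
  ring

variable [FiniteDimensional F W]

lemma exists_dual (φ : W →ₗ[F] F) : ∃ c, g c = φ := by
  have hinj : Function.Injective (g : W → Dual F W) := by
    rw [← LinearMap.ker_eq_bot, LinearMap.ker_eq_bot']
    exact fun u hu => hg.nd u fun u' => by rw [hu]; rfl
  exact (LinearMap.injective_iff_surjective_of_finrank_eq_finrank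
    (f := (g : W →ₗ[F] Dual F W)) (Subspace.dual_finrank_eq).symm).1 hinj φ

/-- A vector pairing to one with `y` and to zero with a subspace not containing `y`. -/
lemma exists_pair_sub {S : Submodule F W} {y : W} (hy : y ∉ S) :
    ∃ c, g y c = 1 ∧ ∀ x ∈ S, g x c = 0 := by
  obtain ⟨φ, hφ, hφ0⟩ := Submodule.exists_dual_map_eq_bot_of_notMem hy inferInstance
  obtain ⟨c, hc⟩ := hg.exists_dual ((φ y)⁻¹ • φ)
  refine ⟨c, by rw [hg.symm, hc]; simp [hφ], fun x hx => ?_⟩
  have : φ x = 0 := (Submodule.eq_bot_iff _).1 hφ0 _ ⟨x, hx, rfl⟩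
  rw [hg.symm, hc]; simp [this]

omit hg in
lemma perp_finrank {k : ℕ} (c : Fin k → W) :
    finrank F W ≤ k + finrank F (LinearMap.ker (LinearMap.pi fun i => g (c i))) := by
  have h1 := LinearMap.finrank_range_add_finrank_ker (LinearMap.pi fun i => g (c i))
  have h2 := Submodule.finrank_le (LinearMap.range (LinearMap.pi fun i => g (c i)))
  rw [Module.finrank_fin_fun] at h2
  omega

omit hg in
lemma exists_perp_avoid {k : ℕ} (c : Fin k → W) (A : Submodule F W)
    (h : k + finrank F A < finrank F W) : ∃ w, w ∉ A ∧ ∀ i, g (c i) w = 0 := by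
  by_contra hc
  push Not at hc
  have h1 : LinearMap.ker (LinearMap.pi fun i => g (c i)) ≤ A := fun x hx => by
    by_contra hxA
    obtain ⟨i, hi⟩ := hc x hxA
    exact hi (congrFun (LinearMap.mem_ker.1 hx) i)
  have := Submodule.finrank_mono h1
  have := perp_finrank (g := g) c
  omega

variable [Finite F]

lemma exists_iso {S : Submodule F W} (hS : 3 ≤ finrank F S) : ∃ x ∈ S, x ≠ 0 ∧ g x x = 0 := by
  by_contra hc
  push Not at hc
  let T (c : W) : Submodule F W := LinearMap.ker (g c)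
  have hdrop : ∀ (R : Submodule F W) (c : W),
      finrank F R ≤ finrank F ↥(R ⊓ T c) + 1 := fun R c => by
    have h1 := Submodule.finrank_sup_add_finrank_inf_eq R (T c)
    have h2 := LinearMap.finrank_range_add_finrank_ker (g c)
    have h3 := (LinearMap.range (g c)).finrank_le
    have h4 := (R ⊔ T c).finrank_le
    rw [Module.finrank_self] at h3
    change _ + finrank F ↥(T c) = _ at h2
    omega
  have hne : ∀ R : Submodule F W, 1 ≤ finrank F R → ∃ x ∈ R, x ≠ 0 := fun R h => by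
    obtain ⟨x, hx, hx0⟩ := (Submodule.ne_bot_iff R).1 fun e => by rw [e, finrank_bot] at h; omega
    exact ⟨x, hx, hx0⟩
  obtain ⟨x, hx, hx0⟩ := hne S (by omega)
  obtain ⟨y, hy, hy0⟩ := hne (S ⊓ T x) (by have := hdrop S x; omega)
  obtain ⟨z, hz, hz0⟩ := hne (S ⊓ T x ⊓ T y) (by have := hdrop S x; have := hdrop (S ⊓ T x) y; omega)
  obtain ⟨⟨hzS, hxz⟩, hyz⟩ := hz
  obtain ⟨hyS, hxy⟩ := hy
  have hxy' : g x y = 0 := hxy
  have hxz' : g x z = 0 := hxz
  have hyz' : g y z = 0 := hyz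
  obtain ⟨a, b, hab⟩ := OrthExt.exists_two_squares hg.two (hc x hx hx0) (hc y hyS hy0) (-g z z)
  have he : g (a • x + b • y + z) (a • x + b • y + z) = 0 := by
    simp only [map_add, map_smul, LinearMap.add_apply, LinearMap.smul_apply, smul_eq_mul, hxy',
      hg.symm y x, hxz', hg.symm z x, hyz', hg.symm z y, mul_zero, add_zero, zero_add]
    linear_combination hab
  have hmem : a • x + b • y + z ∈ S :=
    add_mem (add_mem (S.smul_mem _ hx) (S.smul_mem _ hyS)) hzS
  by_cases h0 : a • x + b • y + z = 0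
  · have := congrArg (g z) h0
    simp only [map_add, map_smul, smul_eq_mul, hg.symm z x, hxz', hg.symm z y, hyz', mul_zero,
      zero_add, map_zero] at this
    exact hc z hzS hz0 this
  · exact hc _ hmem h0 he

omit [FiniteDimensional F W] [Finite F] in
lemma hyp_symm {v v' : W} (h : Hyp g v v') : Hyp g v' v := ⟨h.2.1, h.1, by rw [hg.symm, h.2.2]⟩

omit [Finite F] in
/-- A singular partner inside the orthogonal of a subspace. -/
lemma exists_hyp_perp {v : W} (hv : g v v = 0) {S : Submodule F W} (hvS : v ∉ S)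
    (hperp : ∀ x ∈ S, g x v = 0) : ∃ v', Hyp g v v' ∧ ∀ x ∈ S, g x v' = 0 := by
  obtain ⟨c, hc, hcS⟩ := hg.exists_pair_sub hvS
  refine ⟨c - (g c c / 2) • v, ⟨hv, ?_, ?_⟩, fun x hx => ?_⟩
  · simp only [map_sub, map_smul, LinearMap.sub_apply, LinearMap.smul_apply, smul_eq_mul, hv,
      hg.symm c v, hc]
    field_simp [hg.two]
    ring
  · simp [map_sub, map_smul, hv, hc]
  · simp [map_sub, map_smul, hcS x hx, hperp x hx]

omit [Finite F] in
lemma exists_hyp {v : W} (hv : g v v = 0) (hv0 : v ≠ 0) : ∃ v', Hyp g v v' := by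
  obtain ⟨v', h, -⟩ := hg.exists_hyp_perp hv (S := ⊥) (by simpa using hv0)
    (fun x hx => by rw [(Submodule.mem_bot F).1 hx]; simp)
  exact ⟨v', h⟩

omit [Finite F] in
/-- Companions of two independent orthogonal singular vectors. -/
lemma exists_companions {v c : W} (h : Pair₂ g v c) :
    ∃ v' c', Hyp g v v' ∧ Hyp g c c' ∧ g v' c = 0 ∧ g v c' = 0 ∧ g v' c' = 0 := by
  obtain ⟨hv0, hc, hvv, hcc, hvc⟩ := h
  have hvS : v ∉ F ∙ c := fun hm => by
    obtain ⟨t, ht⟩ := Submodule.mem_span_singleton.1 hm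
    have ht0 : t ≠ 0 := fun h0 => hv0 (by rw [← ht, h0, zero_smul])
    exact hc (Submodule.mem_span_singleton.2 ⟨t⁻¹, by rw [← ht, inv_smul_smul₀ ht0]⟩)
  obtain ⟨v', hv', hv'c⟩ := hg.exists_hyp_perp hvv hvS (fun x hx => by
    obtain ⟨t, rfl⟩ := Submodule.mem_span_singleton.1 hx
    simp [hg.symm c v, hvc])
  have hv'c0 : g c v' = 0 := hv'c c (Submodule.mem_span_singleton_self c)
  have hS : c ∉ Submodule.span F {v, v'} := fun hm => by
    obtain ⟨s, t, hst⟩ := Submodule.mem_span_pair.1 hm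
    have h1 := congrArg (g v) hst
    simp [hvv, hv'.2.2, hvc] at h1
    subst h1
    exact hc (Submodule.mem_span_singleton.2 ⟨s, by rw [← hst, zero_smul, add_zero]⟩)
  obtain ⟨c', hc', hperp⟩ := hg.exists_hyp_perp hcc hS (fun x hx => by
    obtain ⟨s, t, rfl⟩ := Submodule.mem_span_pair.1 hx
    simp [hvc, hg.symm v' c, hv'c0])
  exact ⟨v', c', hv', hc', by rw [hg.symm, hv'c0], hperp v (Submodule.subset_span (by simp)),
    hperp v' (Submodule.subset_span (by simp))⟩

/-- A singular vector orthogonal to a hyperbolic pair. -/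
lemma exists_iso_perp (hb : 5 ≤ finrank F W) (v v' : W) :
    ∃ c, c ≠ 0 ∧ g c c = 0 ∧ g v c = 0 ∧ g v' c = 0 := by
  have hd := perp_finrank (g := g) ![v, v']
  obtain ⟨c, hc, hc0, hcc⟩ := hg.exists_iso (S := LinearMap.ker (LinearMap.pi fun i => g (![v, v'] i)))
    (by omega)
  exact ⟨c, hc0, hcc, congrFun (LinearMap.mem_ker.1 hc) 0, congrFun (LinearMap.mem_ker.1 hc) 1⟩

/-- A second hyperbolic pair. -/
lemma exists_second (hb : 5 ≤ finrank F W) {v v' : W} (h : Hyp g v v') :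
    ∃ c c', Pair₂ g v c ∧ Hyp g c c' ∧ g v c' = 0 ∧ g v' c = 0 ∧ g v' c' = 0 := by
  obtain ⟨c, hc0, hcc, hvc, hv'c⟩ := hg.exists_iso_perp hb v v'
  have hnot : c ∉ Submodule.span F {v, v'} := fun hm => by
    obtain ⟨s, t, hst⟩ := Submodule.mem_span_pair.1 hm
    have e1 := congrArg (g v) hst
    have e2 := congrArg (g v') hst
    simp [h.1, h.2.2, hvc] at e1
    simp [hg.symm v' v, h.2.2, h.2.1, hv'c] at e2
    exact hc0 (by rw [← hst, e1, e2, zero_smul, zero_smul, add_zero])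
  obtain ⟨c', hc', hperp⟩ := hg.exists_hyp_perp hcc hnot (fun x hx => by
    obtain ⟨s, t, rfl⟩ := Submodule.mem_span_pair.1 hx
    simp [hvc, hv'c])
  refine ⟨c, c', ⟨fun h0 => ?_, fun hm => hnot ((Submodule.span_mono (by simp)) hm), h.1, hcc, hvc⟩,
    hc', hperp v (Submodule.subset_span (by simp)), hv'c, hperp v' (Submodule.subset_span (by simp))⟩
  have := h.2.2
  simp [h0] at this

lemma exists_pair₂ (hb : 5 ≤ finrank F W) {v : W} (hv : g v v = 0) (hv0 : v ≠ 0) :
    ∃ c, Pair₂ g v c := by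
  obtain ⟨v', h⟩ := hg.exists_hyp hv hv0
  obtain ⟨c, c', hc, -⟩ := hg.exists_second hb h
  exact ⟨c, hc⟩

lemma exists_hyp_any (hb : 5 ≤ finrank F W) : ∃ v v', Hyp g v v' := by
  obtain ⟨v, -, hv0, hv⟩ := hg.exists_iso (S := (⊤ : Submodule F W)) (by rw [finrank_top]; omega)
  exact ⟨v, hg.exists_hyp hv hv0⟩

/-- An anisotropic vector orthogonal to few vectors. -/
lemma exists_aniso_perp {v v' c c' : W} (hc : g c c' ≠ 0) (h1 : g v c = 0) (h2 : g v c' = 0)
    (h3 : g v' c = 0) (h4 : g v' c' = 0) : ∃ z, g v z = 0 ∧ g v' z = 0 ∧ g z z ≠ 0 := by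
  obtain ⟨z, hz, hzz⟩ := hg.aniso_of_pair
    (S := LinearMap.ker (LinearMap.pi fun i => g (![v, v'] i))) (x := c) (y := c')
    (LinearMap.mem_ker.2 (funext fun i => by fin_cases i <;> simpa))
    (LinearMap.mem_ker.2 (funext fun i => by fin_cases i <;> simpa)) hc
  exact ⟨z, congrFun (LinearMap.mem_ker.1 hz) 0, congrFun (LinearMap.mem_ker.1 hz) 1, hzz⟩

omit [FiniteDimensional F W] [Finite F] in
/-- Singular vectors of a subspace with a hyperbolic pair span it. -/
lemma le_of_iso {S T : Submodule F W} {c c' : W} (h : Hyp g c c') (hc : c ∈ S) (hc' : c' ∈ S)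
    (hT : ∀ w ∈ S, g w w = 0 → w ∈ T) : S ≤ T := by
  intro y hy
  set y₀ := y - g c' y • c - g c y • c' with hy₀
  have hy₀S : y₀ ∈ S := sub_mem (sub_mem hy (S.smul_mem _ hc)) (S.smul_mem _ hc')
  have e1 : g c y₀ = 0 := by simp [hy₀, h.1, h.2.2]
  have e2 : g c' y₀ = 0 := by simp [hy₀, h.2.1, hg.symm c' c, h.2.2]
  have hw : c' + y₀ - (g y₀ y₀ / 2) • c ∈ T := hT _ (sub_mem (add_mem hc' hy₀S) (S.smul_mem _ hc)) (by
    simp only [map_add, map_sub, map_smul, LinearMap.add_apply, LinearMap.sub_apply,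
      LinearMap.smul_apply, smul_eq_mul, h.1, h.2.1, h.2.2, hg.symm c' c, e1, e2, hg.symm y₀ c,
      hg.symm y₀ c']
    field_simp [hg.two]
    ring)
  have hcT := hT c hc h.1
  have hc'T := hT c' hc' h.2.1
  have : y₀ ∈ T := by
    have := add_mem (sub_mem hw hc'T) (T.smul_mem (g y₀ y₀ / 2) hcT)
    convert this using 1
    abel
  have := add_mem (add_mem this (T.smul_mem (g c' y) hcT)) (T.smul_mem (g c y) hc'T)
  convert this using 1
  rw [hy₀]; abel

/-- The singular vectors not orthogonal to a singular vector span. -/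
lemma span_affine (hb : 5 ≤ finrank F W) {v : W} (hv : g v v = 0) (hv0 : v ≠ 0)
    {T : Submodule F W} (hT : ∀ w, g w w = 0 → g v w ≠ 0 → w ∈ T) : T = ⊤ := by
  obtain ⟨v', h⟩ := hg.exists_hyp hv hv0
  obtain ⟨c, c', hp, hc, h1, h2, h3⟩ := hg.exists_second hb h
  obtain ⟨z, hz1, hz2, hzz⟩ := hg.exists_aniso_perp (v := v) (v' := v')
    (by rw [hc.2.2]; exact one_ne_zero) hp.2.2.2.2 h1 h2 h3
  have hlift : ∀ y, g v y = 0 → g v' y = 0 → v' + y - (g y y / 2) • v ∈ T := fun y e1 e2 => hT _ (by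
    simp only [map_add, map_sub, map_smul, LinearMap.add_apply, LinearMap.sub_apply,
      LinearMap.smul_apply, smul_eq_mul, h.1, h.2.1, h.2.2, hg.symm v' v, e1, e2, hg.symm y v,
      hg.symm y v']
    field_simp [hg.two]
    ring) (by simp [map_add, map_sub, map_smul, h.1, h.2.2, e1])
  have hv'T : v' ∈ T := hT v' h.2.1 (by rw [h.2.2]; exact one_ne_zero)
  have hsum := sub_mem (add_mem (hlift z hz1 hz2) (hlift (-z) (by simp [hz1]) (by simp [hz2])))
    (add_mem hv'T hv'T)
  have e : (v' + z - (g z z / 2) • v) + (v' + -z - (g (-z) (-z) / 2) • v) - (v' + v') =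
      (-(g z z)) • v := by
    have h2' := hg.two
    simp only [map_neg, LinearMap.neg_apply, neg_neg]
    match_scalars <;> field_simp <;> ring
  rw [e] at hsum
  have hvT : v ∈ T := (Submodule.smul_mem_iff T (neg_ne_zero.2 hzz)).1 hsum
  refine eq_top_iff.2 fun y _ => ?_
  have e1 : g v (y - g v' y • v - g v y • v') = 0 := by simp [h.1, h.2.2]
  have e2 : g v' (y - g v' y • v - g v y • v') = 0 := by simp [h.2.1, hg.symm v' v, h.2.2]
  have := add_mem (add_mem (add_mem (sub_mem (hlift _ e1 e2) hv'T)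
    (T.smul_mem (g (y - g v' y • v - g v y • v') (y - g v' y • v - g v y • v') / 2) hvT))
    (T.smul_mem (g v' y) hvT)) (T.smul_mem (g v y) hv'T)
  convert this using 1
  abel

omit [Finite F] in
/-- A singular vector pairing with two orthogonal singular vectors. -/
lemma exists_mid {v v' : W} (hv : g v v = 0) (hv0 : v ≠ 0) (hv' : g v' v' = 0) (hv'0 : v' ≠ 0)
    (hvv' : g v v' = 0) : ∃ u, g u u = 0 ∧ g u v ≠ 0 ∧ g u v' ≠ 0 := by
  obtain ⟨f, hf⟩ := hg.exists_hyp hv hv0
  obtain ⟨f', hf'⟩ := hg.exists_hyp hv' hv'0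
  by_cases h1 : g f v' = 0
  swap
  · exact ⟨f, hf.2.1, by rw [hg.symm, hf.2.2]; exact one_ne_zero, h1⟩
  by_cases h2 : g f' v = 0
  swap
  · exact ⟨f', hf'.2.1, h2, by rw [hg.symm, hf'.2.2]; exact one_ne_zero⟩
  refine ⟨f + f' - g f f' • v, ?_, ?_, ?_⟩
  · simp [hf.2.1, hf'.2.1, hv, h2, hg.symm v f', hg.symm f v, hf.2.2, hg.symm f' f]
  · simp [hg.symm f v, hf.2.2, h2, hv]
  · simp [h1, hg.symm f' v', hf'.2.2, hvv']

end Sym

end Cfsg.Agent.MaxSub.OrthTensor
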